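import Cfsg.Agent.SchurBound.Cores
import Cfsg.Agent.SchurCert.GolayPerm

set_option autoImplicit false

/-!
A certificate for a lower bound of a Schur multiplier: cosets of a subgroup, a cocycle on the
subgroup, and the action of two commuting elements of the subgroup on the cosets.
-/

namespace Cfsg.Agent.SchurBound

open Cfsg.Agent.SchurCert
open scoped commutatorElement

universe v

/-- Read an entry of width `w` from a packed number. -/
def getN (w L i : ℕ) : ℕ := Nat.mod (Nat.shiftRight L (Nat.mul w i)) (Nat.pow 2 w)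

/-- Read an entry of width `w` from a list of blocks of 256 entries. -/
def getP (w : ℕ) (L : List ℕ) (i : ℕ) : ℕ := getN w (L.getD (Nat.div i 256) 0) (Nat.mod i 256)

/-- A test for all numbers below a bound. -/
def allN (p : ℕ → Bool) : ℕ → Bool := Nat.rec true fun k ih => p k && ih

theorem allN_iff {p : ℕ → Bool} : ∀ {n : ℕ}, allN p n = true → ∀ i < n, p i = true
  | 0, _, i, hi => absurd hi (Nat.not_lt_zero i)
  | n + 1, h, i, hi => by
    have h' : p n = true ∧ allN p n = true := Bool.and_eq_true_iff.1 h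
    rcases Nat.lt_or_eq_of_le (Nat.le_of_lt_succ hi) with hlt | rfl
    · exact allN_iff h'.2 i hlt
    · exact h'.1

/-- A sum over the numbers below a bound. -/
def sumN (f : ℕ → ℕ) : ℕ → ℕ := Nat.rec 0 fun k ih => Nat.add ih (f k)

/-- The data. Tables are packed with `getP`. -/
structure LCert where
  /-- The number of cosets. -/
  m : ℕ
  /-- The order of the subgroup. -/
  N : ℕ
  /-- The modulus. -/
  n : ℕ
  /-- The width of a code. -/
  wc : ℕ
  /-- The width of a coset number. -/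
  wi : ℕ
  /-- The width of a subgroup number. -/
  wu : ℕ
  /-- The codes of generators. -/
  gens : List ℕ
  /-- The numbers in the subgroup of those generators that lie in it. -/
  ugi : List (ℕ × ℕ)
  /-- The codes of the representatives. -/
  T : List ℕ
  /-- The parents of the representatives. -/
  tpar : ℕ
  /-- The generators leading from the parents. -/
  tgen : ℕ
  /-- The ranks by keys. -/
  rank : ℕ
  /-- The representatives sorted by keys. -/
  srt : ℕ
  /-- The codes of the subgroup. -/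
  U : ℕ
  /-- Each element of the subgroup is an earlier one times a listed generator. -/
  upar : List (ℕ × ℕ)
  /-- The multiplication table. -/
  mt : ℕ
  /-- The cocycle. -/
  f : ℕ
  /-- The two elements. -/
  x : ℕ
  /-- The two elements. -/
  y : ℕ
  /-- The cosets reached by the first. -/
  px : ℕ
  /-- The elements of the subgroup for the first. -/
  ux : ℕ
  /-- The cosets reached by the second. -/
  py : ℕ
  /-- The elements of the subgroup for the second. -/
  uy : ℕ

namespace LCert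

variable (D : LCert) (mul : ℕ → ℕ → ℕ) (one : ℕ) (key : ℕ → ℕ)

/-- The code of a representative. -/
def Tc (i : ℕ) : ℕ := getP D.wc D.T i

/-- The code of an element of the subgroup. -/
def Uc (k : ℕ) : ℕ := getN D.wc D.U k

/-- The multiplication table. -/
def mtv (k l : ℕ) : ℕ := getN D.wu D.mt (Nat.add (Nat.mul k D.N) l)

/-- The cocycle. -/
def fv (k l : ℕ) : ℕ := getN 8 D.f (Nat.add (Nat.mul k D.N) l)

/-- The representatives are products of generators. -/
def repsOK : Bool :=
  allN (fun i =>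
    bif Nat.beq i 0 then Nat.beq (D.Tc 0) one
    else
      let pa := getN D.wi D.tpar i
      let g := getN 8 D.tgen i
      Nat.blt pa i && Nat.blt g D.gens.length &&
        Nat.beq (D.Tc i) (mul (D.gens.getD g one) (D.Tc pa))) D.m

/-- The sorting of the representatives. -/
def rankOK : Bool :=
  allN (fun i =>
    Nat.blt (getN D.wi D.rank i) D.m && Nat.beq (getN D.wi D.srt (getN D.wi D.rank i)) i) D.m

/-- The keys of the sorted representatives increase. -/
def keysOK : Bool :=
  allN (fun j =>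
    Nat.blt (key (D.Tc (getN D.wi D.srt j))) (key (D.Tc (getN D.wi D.srt (j + 1))))) (D.m - 1)

/-- The subgroup and its table. -/
def subOK : Bool :=
  Nat.blt 0 D.N && Nat.beq (D.Uc 0) one &&
  (D.ugi.all fun e => Nat.blt e.1 D.gens.length && Nat.blt e.2 D.N &&
    Nat.beq (D.Uc e.2) (D.gens.getD e.1 one)) &&
  allN (fun k => Nat.beq k 0 ||
    (let e := D.upar.getD k (0, 0)
     Nat.blt e.1 k && Nat.blt e.2 D.ugi.length &&
       Nat.beq k (D.mtv e.1 (D.ugi.getD e.2 (0, 0)).2))) D.N &&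
  allN (fun k => allN (fun l => !(Nat.beq (D.Uc k) (D.Uc l))) k) D.N &&
  allN (fun k => Nat.beq (D.mtv k 0) k && D.ugi.all fun e =>
    Nat.beq (mul (D.Uc k) (D.Uc e.2)) (D.Uc (D.mtv k e.2))) D.N

/-- The table is associative against the generators. -/
def tblOK : Bool :=
  allN (fun k => allN (fun l => Nat.blt (D.mtv k l) D.N && (Nat.beq l 0 ||
    (let e := D.upar.getD l (0, 0)
     Nat.beq (D.mtv k l) (D.mtv (D.mtv k e.1) (D.ugi.getD e.2 (0, 0)).2)))) D.N) D.N

/-- The cocycle identities against the generators. -/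
def cocOK : Bool :=
  allN (fun a => Nat.beq (Nat.mod (D.fv 0 a) D.n) 0 && Nat.beq (Nat.mod (D.fv a 0) D.n) 0 &&
    allN (fun b => D.ugi.all fun e =>
      Nat.beq (Nat.mod (Nat.add (D.fv a b) (D.fv (D.mtv a b) e.2)) D.n)
        (Nat.mod (Nat.add (D.fv a (D.mtv b e.2)) (D.fv b e.2)) D.n)) D.N) D.N

/-- A table of the action is correct. -/
def tabOK (x p u : ℕ) : Bool :=
  allN (fun i =>
    Nat.blt (getN D.wi p i) D.m && Nat.blt (getN D.wu u i) D.N &&
      Nat.beq (mul (D.Uc x) (D.Tc i)) (mul (D.Tc (getN D.wi p i)) (D.Uc (getN D.wu u i)))) D.m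

/-- The sum over the cosets. -/
def coresSum (ua pb ub : ℕ) : ℕ :=
  sumN (fun i => D.fv (getN D.wu ua (getN D.wi pb i)) (getN D.wu ub i)) D.m

/-- The two elements commute and give the value one. -/
def valOK : Bool :=
  Nat.blt D.x D.N && Nat.blt D.y D.N &&
  Nat.beq (mul (D.Uc D.x) (D.Uc D.y)) (mul (D.Uc D.y) (D.Uc D.x)) &&
    Nat.beq (Nat.mod (D.coresSum D.ux D.py D.uy) D.n) (Nat.mod (D.coresSum D.uy D.px D.ux + 1) D.n)

/-- The two elements commute and give the value zero. -/
def zeroOK : Bool :=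
  Nat.blt D.x D.N && Nat.blt D.y D.N &&
  Nat.beq (mul (D.Uc D.x) (D.Uc D.y)) (mul (D.Uc D.y) (D.Uc D.x)) &&
    Nat.beq (Nat.mod (D.coresSum D.ux D.py D.uy) D.n) (Nat.mod (D.coresSum D.uy D.px D.ux) D.n)

/-- All the checks. -/
structure Checked : Prop where
  reps : D.repsOK mul one = true
  ranks : D.rankOK = true
  keys : D.keysOK key = true
  sub : D.subOK mul one = true
  tbl : D.tblOK = true
  coc : D.cocOK = true
  tabx : D.tabOK mul D.x D.px D.ux = true
  taby : D.tabOK mul D.y D.py D.uy = true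
  value : D.valOK mul = true

end LCert

theorem sum_sumN {n : ℕ} (g : ℕ → ℕ) : ∀ m : ℕ,
    ((sumN g m : ℕ) : ZMod n) = ∑ i : Fin m, (g i : ZMod n)
  | 0 => by simp [sumN]
  | m + 1 => by
    rw [Fin.sum_univ_castSucc, show sumN g (m + 1) = sumN g m + g m from rfl, Nat.cast_add,
      sum_sumN g m]
    simp

/-- A checked certificate gives a cocycle on the group, with values computed from tables. -/
theorem exists_cocycle_of_lcert {G : Type v} [Group G] [Finite G] (C : Code G)
    (D : LCert) [NeZero D.n] (key : ℕ → ℕ)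
    (hkey : ∀ (g : G) (k : ℕ), k < D.N → key (C.mul (C.enc g) (D.Uc k)) = key (C.enc g))
    (hgens : ∀ i < D.gens.length, ∃ g : G, C.enc g = D.gens.getD i C.one)
    (hcard : Nat.card G = D.m * D.N) (hreps : D.repsOK C.mul C.one = true)
    (hrank' : D.rankOK = true) (hkeys' : D.keysOK key = true)
    (hsub : D.subOK C.mul C.one = true) (htbl : D.tblOK = true) (hcoc' : D.cocOK = true) :
    ∃ F : Cocycle G D.n, ∀ x y px ux py uy : ℕ, x < D.N → y < D.N →
      D.tabOK C.mul x px ux = true → D.tabOK C.mul y py uy = true →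
      C.mul (D.Uc x) (D.Uc y) = C.mul (D.Uc y) (D.Uc x) →
      ∃ X Y : G, C.enc X = D.Uc x ∧ C.enc Y = D.Uc y ∧ ⁅X, Y⁆ = 1 ∧
        commVal F [(X, Y)] = (D.coresSum ux py uy : ZMod D.n) - D.coresSum uy px ux := by
  simp only [LCert.subOK, Bool.and_eq_true, Nat.blt_eq] at hsub
  obtain ⟨⟨⟨⟨⟨hN, hU0⟩, hugi'⟩, hupar'⟩, hUnd'⟩, hmtg'⟩ := hsub
  have hugi : ∀ e ∈ D.ugi, (e.1 < D.gens.length ∧ e.2 < D.N) ∧
      Nat.beq (D.Uc e.2) (D.gens.getD e.1 C.one) = true := by
    simpa [List.all_eq_true, and_assoc] using hugi'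
  have hupar : ∀ k < D.N, Nat.beq k 0 = true ∨
      ((D.upar.getD k (0, 0)).1 < k ∧ (D.upar.getD k (0, 0)).2 < D.ugi.length) ∧
        k = D.mtv (D.upar.getD k (0, 0)).1 (D.ugi.getD (D.upar.getD k (0, 0)).2 (0, 0)).2 := by
    intro k hk
    simpa [and_assoc] using allN_iff hupar' k hk
  have hUnd : ∀ k < D.N, ∀ l < k, Nat.beq (D.Uc k) (D.Uc l) = false := by
    intro k hk l hl
    simpa using allN_iff (allN_iff hUnd' k hk) l hl
  have hmtg : ∀ k < D.N, D.mtv k 0 = k ∧ ∀ e ∈ D.ugi,
      C.mul (D.Uc k) (D.Uc e.2) = D.Uc (D.mtv k e.2) := by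
    intro k hk
    simpa [List.all_eq_true] using allN_iff hmtg' k hk
  have hU0' : D.Uc 0 = C.one := Nat.eq_of_beq_eq_true hU0
  have htblv : ∀ k < D.N, ∀ l < D.N, D.mtv k l < D.N ∧ (l = 0 ∨ D.mtv k l =
      D.mtv (D.mtv k (D.upar.getD l (0, 0)).1) (D.ugi.getD (D.upar.getD l (0, 0)).2 (0, 0)).2) := by
    intro k hk l hl
    simpa using allN_iff (allN_iff htbl k hk) l hl
  have hU : ∀ k < D.N, ∃ g : G, C.enc g = D.Uc k := by
    intro k
    induction k using Nat.strong_induction_on with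
    | _ k ih =>
      intro hk
      rcases hupar k hk with h0 | ⟨⟨h1, h2⟩, h3⟩
      · rw [Nat.eq_of_beq_eq_true h0, Nat.eq_of_beq_eq_true hU0]
        exact ⟨1, C.enc_one⟩
      · obtain ⟨g, hg⟩ := ih _ h1 (h1.trans hk)
        have hmem : D.ugi.getD (D.upar.getD k (0, 0)).2 (0, 0) ∈ D.ugi := by
          rw [List.getD_eq_getElem _ _ h2]; exact List.getElem_mem h2
        obtain ⟨⟨hl, -⟩, he⟩ := hugi _ hmem
        obtain ⟨g', hg'⟩ := hgens _ hl
        refine ⟨g * g', ?_⟩
        rw [C.enc_mul, hg, hg', ← Nat.eq_of_beq_eq_true he, (hmtg _ (h1.trans hk)).2 _ hmem, ← h3]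
  have hT : ∀ i < D.m, ∃ g : G, C.enc g = D.Tc i := by
    intro i
    induction i using Nat.strong_induction_on with
    | _ i ih =>
      intro hi
      have h := allN_iff hreps i hi
      rcases Nat.eq_zero_or_pos i with rfl | hpos
      · simp only [Nat.beq_refl, cond_true] at h
        exact ⟨1, C.enc_one.trans (Nat.eq_of_beq_eq_true h).symm⟩
      · have e0 : Nat.beq i 0 = false := by
          cases hb : Nat.beq i 0
          · rfl
          · exact absurd (Nat.eq_of_beq_eq_true hb) (by omega)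
        simp only [e0, cond_false, Bool.and_eq_true, Nat.blt_eq] at h
        obtain ⟨⟨h1, h2⟩, h3⟩ := h
        obtain ⟨g, hg⟩ := ih _ h1 (h1.trans hi)
        obtain ⟨g', hg'⟩ := hgens _ h2
        exact ⟨g' * g, by rw [C.enc_mul, hg, hg', Nat.eq_of_beq_eq_true h3]⟩
  choose Tf hTf using fun i : Fin D.m => hT i i.2
  choose Uf hUf using fun k : Fin D.N => hU k k.2
  have hrank : ∀ i < D.m, getN D.wi D.rank i < D.m ∧
      Nat.beq (getN D.wi D.srt (getN D.wi D.rank i)) i = true := fun i hi => by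
    simpa using allN_iff hrank' i hi
  have hsorted : ∀ j < D.m - 1, key (D.Tc (getN D.wi D.srt j)) < key (D.Tc (getN D.wi D.srt (j + 1))) :=
    fun j hj => by simpa using allN_iff hkeys' j hj
  have hmono : ∀ j' < D.m, ∀ j < j', key (D.Tc (getN D.wi D.srt j)) < key (D.Tc (getN D.wi D.srt j')) := by
    intro j'
    induction j' with
    | zero => intro _ j hj; omega
    | succ j' ih =>
      intro hj' j hj
      have hs := hsorted j' (by omega)
      rcases Nat.lt_or_eq_of_le (Nat.le_of_lt_succ hj) with h | rfl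
      · exact (ih (by omega) j h).trans hs
      · exact hs
  have hTinj : ∀ i j : Fin D.m, key (D.Tc i) = key (D.Tc j) → i = j := by
    intro i j h
    obtain ⟨hi1, hi2⟩ := hrank i i.2
    obtain ⟨hj1, hj2⟩ := hrank j j.2
    rw [← Nat.eq_of_beq_eq_true hi2, ← Nat.eq_of_beq_eq_true hj2] at h
    have hr : getN D.wi D.rank i = getN D.wi D.rank j := by
      rcases lt_trichotomy (getN D.wi D.rank i) (getN D.wi D.rank j) with hlt | he | hlt
      · exact absurd h (hmono _ hj1 _ hlt).ne
      · exact he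
      · exact absurd h (hmono _ hi1 _ hlt).ne'
    exact Fin.ext (((Nat.eq_of_beq_eq_true hi2).symm.trans (by rw [hr])).trans
      (Nat.eq_of_beq_eq_true hj2))
  have hUinj : ∀ k l : Fin D.N, D.Uc k = D.Uc l → k = l := by
    intro k l h
    rcases lt_trichotomy (k : ℕ) l with hlt | he | hlt
    · have := hUnd l l.2 k hlt
      rw [h, Nat.beq_refl] at this
      exact Bool.noConfusion this
    · exact Fin.ext he
    · have := hUnd k k.2 l hlt
      rw [h, Nat.beq_refl] at this
      exact Bool.noConfusion this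
  have hinj : Function.Injective fun q : Fin D.m × Fin D.N => Tf q.1 * Uf q.2 := by
    rintro ⟨i, k⟩ ⟨j, l⟩ h
    have he : C.mul (D.Tc i) (D.Uc k) = C.mul (D.Tc j) (D.Uc l) := by
      rw [← hTf, ← hUf, ← hTf, ← hUf, ← C.enc_mul, ← C.enc_mul]
      exact congrArg C.enc h
    have hk := congrArg key he
    rw [← hTf, ← hTf, hkey _ _ k.2, hkey _ _ l.2, hTf, hTf] at hk
    obtain rfl := hTinj i j hk
    have hkl : Uf k = Uf l := mul_left_cancel h
    obtain rfl := hUinj k l (by rw [← hUf, ← hUf, hkl])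
    rfl
  have hbij : Function.Bijective fun q : Fin D.m × Fin D.N => Tf q.1 * Uf q.2 :=
    (Nat.bijective_iff_injective_and_card _).2 ⟨hinj, by
      rw [Nat.card_prod, Nat.card_fin, Nat.card_fin, hcard]⟩
  let e : Fin D.N := ⟨0, hN⟩
  have hmt : ∀ l < D.N, ∀ k < D.N, C.mul (D.Uc k) (D.Uc l) = D.Uc (D.mtv k l) := by
    intro l
    induction l using Nat.strong_induction_on with
    | _ l ih =>
      intro hl k hk
      obtain ⟨g₁, hg₁⟩ := hU k hk
      rcases hupar l hl with h0 | ⟨⟨h1, h2⟩, h3⟩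
      · obtain rfl := Nat.eq_of_beq_eq_true h0
        rw [(hmtg k hk).1, hU0', ← hg₁, ← C.enc_one, ← C.enc_mul, mul_one]
      · have hl0 : l ≠ 0 := by omega
        have hmem : D.ugi.getD (D.upar.getD l (0, 0)).2 (0, 0) ∈ D.ugi := by
          rw [List.getD_eq_getElem _ _ h2]; exact List.getElem_mem h2
        have hp := h1.trans hl
        obtain ⟨g₂, hg₂⟩ := hU _ hp
        obtain ⟨g₃, hg₃⟩ := hU _ (hugi _ hmem).1.2
        rw [((htblv k hk l hl).2).resolve_left hl0, ← (hmtg _ (htblv k hk _ hp).1).2 _ hmem,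
          ← ih _ h1 hp k hk]
        conv_lhs => rw [h3, ← (hmtg _ hp).2 _ hmem]
        rw [← hg₁, ← hg₂, ← hg₃]
        simp only [← C.enc_mul, mul_assoc]
  let K : Cosets G D.m D.N :=
    { T := Tf, U := Uf, mt := fun k l => ⟨D.mtv k l, (htblv k k.2 l l.2).1⟩, e := e
      U_e := C.enc_inj (by rw [hUf, C.enc_one]; exact Nat.eq_of_beq_eq_true hU0)
      U_mul := fun k l => C.enc_inj (by
        rw [C.enc_mul, hUf, hUf, hUf]
        exact hmt l l.2 k k.2)
      bij := hbij }
  have hUfi : ∀ k l : Fin D.N, Uf k = Uf l → k = l := fun k l h =>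
    hUinj k l (by rw [← hUf, ← hUf, h])
  have hmte : ∀ k, K.mt k e = k := fun k => hUfi _ _ (by
    show K.U (K.mt k K.e) = K.U k
    rw [← K.U_mul, K.U_e, mul_one])
  have hassoc : ∀ a b d, K.mt (K.mt a b) d = K.mt a (K.mt b d) := fun a b d => hUfi _ _ (by
    show K.U _ = K.U _
    rw [← K.U_mul, ← K.U_mul, ← K.U_mul, ← K.U_mul, mul_assoc])
  let f : Fin D.N → Fin D.N → ZMod D.n := fun k l => (D.fv k l : ZMod D.n)
  have hcoc : ∀ a < D.N, (Nat.beq (D.fv 0 a % D.n) 0 = true ∧ Nat.beq (D.fv a 0 % D.n) 0 = true) ∧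
      ∀ b < D.N, ∀ e ∈ D.ugi, Nat.beq ((D.fv a b + D.fv (D.mtv a b) e.2) % D.n)
        ((D.fv a (D.mtv b e.2) + D.fv b e.2) % D.n) = true := by
    intro a ha
    have h := Bool.and_eq_true_iff.1 (allN_iff hcoc' a ha)
    exact ⟨Bool.and_eq_true_iff.1 h.1, fun b hb =>
      List.all_eq_true.1 (allN_iff h.2 b hb)⟩
  have hz : ∀ x : ℕ, Nat.beq (x % D.n) 0 = true → (x : ZMod D.n) = 0 := fun x h => by
    rw [← ZMod.natCast_mod, Nat.eq_of_beq_eq_true h, Nat.cast_zero]
  have h0 : ∀ k, f e k = 0 := fun k => hz _ (hcoc k k.2).1.1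
  have h0' : ∀ k, f k e = 0 := fun k => hz _ (hcoc k k.2).1.2
  have hgenc : ∀ (a b : Fin D.N), ∀ g ∈ D.ugi, ∀ hg : g.2 < D.N,
      f a b + f (K.mt a b) ⟨g.2, hg⟩ = f a (K.mt b ⟨g.2, hg⟩) + f b ⟨g.2, hg⟩ := by
    intro a b g hg hlt
    have h := Nat.eq_of_beq_eq_true ((hcoc a a.2).2 b b.2 g hg)
    simp only [f, ← Nat.cast_add]
    rw [← ZMod.natCast_mod, h, ZMod.natCast_mod]
  have hf : ∀ a b d, f a b + f (K.mt a b) d = f a (K.mt b d) + f b d := by
    suffices H : ∀ k, ∀ d : Fin D.N, (d : ℕ) = k →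
        ∀ a b, f a b + f (K.mt a b) d = f a (K.mt b d) + f b d from
      fun a b d => H d d rfl a b
    intro k
    induction k using Nat.strong_induction_on with
    | _ k ih =>
      intro d hd a b
      subst hd
      rcases hupar d d.2 with hd0 | ⟨⟨h1, h2⟩, h3⟩
      · obtain rfl : d = e := Fin.ext (Nat.eq_of_beq_eq_true hd0)
        rw [h0', h0', hmte]
      · have hmem : D.ugi.getD (D.upar.getD d (0, 0)).2 (0, 0) ∈ D.ugi := by
          rw [List.getD_eq_getElem _ _ h2]; exact List.getElem_mem h2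
        obtain ⟨⟨-, hgN⟩, -⟩ := hugi _ hmem
        let c' : Fin D.N := ⟨_, h1.trans d.2⟩
        let g' : Fin D.N := ⟨_, hgN⟩
        have hd : d = K.mt c' g' := Fin.ext h3
        have P1 := ih c' h1 c' rfl
        have P2 := fun a b => hgenc a b _ hmem hgN
        rw [hd]
        have e1 := P2 (K.mt a b) c'
        have e2 := P2 b c'
        have e3 := P2 a (K.mt b c')
        rw [hassoc a b c'] at e1
        rw [← hassoc b c' g']
        linear_combination P1 a b - e1 + e2 + e3
  let F := K.cores f hf h0 h0'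
  have htab : ∀ (a : Fin D.N) (p u : ℕ), D.tabOK C.mul a p u = true → ∀ i : Fin D.m,
      ((K.act (Uf a) i : Fin D.m) : ℕ) = getN D.wi p i ∧
        ((K.sub (Uf a) i : Fin D.N) : ℕ) = getN D.wu u i := by
    intro a p u ht i
    have h := allN_iff ht i i.2
    simp only [Bool.and_eq_true, Nat.blt_eq] at h
    obtain ⟨⟨h1, h2⟩, h3⟩ := h
    obtain ⟨ha, hu⟩ := K.act_sub_eq (g := Uf a) (i := i) (j := ⟨_, h1⟩) (k := ⟨_, h2⟩)
      (C.enc_inj (by
        show C.enc (Uf a * Tf i) = C.enc (Tf _ * Uf _)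
        rw [C.enc_mul, C.enc_mul, hUf, hUf, hTf, hTf]
        exact Nat.eq_of_beq_eq_true h3))
    exact ⟨congrArg Fin.val ha, congrArg Fin.val hu⟩
  have hsum : ∀ (a b : Fin D.N) (pa ua pb ub : ℕ), D.tabOK C.mul a pa ua = true →
      D.tabOK C.mul b pb ub = true → F.c (Uf a) (Uf b) = (D.coresSum ua pb ub : ZMod D.n) := by
    intro a b pa ua pb ub ha hb
    rw [LCert.coresSum, sum_sumN]
    rw [K.cores_c f hf h0 h0']
    refine Finset.sum_congr rfl fun i _ => ?_
    simp only [f]
    rw [(htab a pa ua ha _).2, (htab b pb ub hb i).1, (htab b pb ub hb i).2]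
  refine ⟨F, fun x y px ux py uy hxN hyN htx hty hcomm => ?_⟩
  let X : G := Uf ⟨x, hxN⟩
  let Y : G := Uf ⟨y, hyN⟩
  have hXY : ⁅X, Y⁆ = 1 := by
    rw [commutatorElement_eq_one_iff_mul_comm]
    apply C.enc_inj
    rw [C.enc_mul, C.enc_mul, hUf, hUf]
    exact hcomm
  refine ⟨X, Y, hUf _, hUf _, hXY, ?_⟩
  simp only [commVal, hXY, F.one_left, List.map_nil, List.prod_nil, add_zero, sub_zero]
  rw [hsum _ _ _ _ _ _ htx hty, hsum _ _ _ _ _ _ hty htx]

/-- A checked certificate gives a stem extension with cyclic kernel of order `n`. -/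
theorem exists_stem_of_lcert {G : Type v} [Group G] [Finite G] (C : Code G)
    (hperf : commutator G = ⊤) (D : LCert) [NeZero D.n] (key : ℕ → ℕ)
    (hkey : ∀ (g : G) (k : ℕ), k < D.N → key (C.mul (C.enc g) (D.Uc k)) = key (C.enc g))
    (hgens : ∀ i < D.gens.length, ∃ g : G, C.enc g = D.gens.getD i C.one)
    (hcard : Nat.card G = D.m * D.N) (hcheck : D.Checked C.mul C.one key) :
    ∃ (W : Type v) (_ : Group W) (_ : Finite W) (σ : W →* G),
      Cfsg.IsStemExtension σ ∧ Nonempty (σ.ker ≃* Multiplicative (ZMod D.n)) := by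
  obtain ⟨hreps, hrank', hkeys', hsub, htbl, hcoc', htx, hty, hval⟩ := hcheck
  obtain ⟨F, hF⟩ := exists_cocycle_of_lcert C D key hkey hgens hcard hreps hrank' hkeys' hsub htbl
    hcoc'
  simp only [LCert.valOK, Bool.and_eq_true, Nat.blt_eq] at hval
  obtain ⟨⟨⟨hxN, hyN⟩, hcomm⟩, hv⟩ := hval
  obtain ⟨X, Y, -, -, hXY, hc⟩ := hF _ _ _ _ _ _ hxN hyN htx hty (Nat.eq_of_beq_eq_true hcomm)
  have hv' : D.coresSum D.ux D.py D.uy % D.n = (D.coresSum D.uy D.px D.ux + 1) % D.n :=
    Nat.eq_of_beq_eq_true hv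
  have hcv : commVal F [(X, Y)] = 1 := by
    rw [hc, ← ZMod.natCast_mod (D.coresSum D.ux D.py D.uy), hv', ZMod.natCast_mod]
    push_cast
    ring
  exact exists_stem_of_cocycle hperf F [(X, Y)] (by simp [hXY]) hcv

/-- Composition of codes by a direct recursion. -/
def packD (q r : ℕ) : ℕ → ℕ → ℕ :=
  Nat.rec (fun acc => acc) fun k ih acc =>
    ih (Nat.add (Nat.mul acc 32) (Nat.land (Nat.shiftRight q (Nat.mul 5
      (Nat.land (Nat.shiftRight r (Nat.mul 5 k)) 31))) 31))

theorem packD_eq (q r : ℕ) : ∀ k acc : ℕ,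
    packD q r k acc = acc * 2 ^ (5 * k) + pack (fun i => getC q (getC r i)) k
  | 0, acc => by simp [packD, pack]
  | k + 1, acc => by
    show packD q r k (acc * 32 + getC q (getC r k)) = _
    rw [packD_eq q r k, pack, Nat.shiftLeft_eq, show 5 * (k + 1) = 5 * k + 5 by ring, pow_add]
    ring

/-- Composition of codes, for kernel evaluation. -/
def permMulD (q r : ℕ) : ℕ := packD q r 24 0

theorem permMulD_eq (q r : ℕ) : permMulD q r = permMul q r := by
  rw [permMulD, packD_eq, Nat.zero_mul, Nat.zero_add, permMul]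

/-- The code on permutations with the direct composition. -/
def permCodeD (H : Subgroup (Equiv.Perm Cfsg.GolayPt)) : Code H where
  mul := permMulD
  one := permOne
  enc := fun σ => encPerm σ.1
  enc_one := encPerm_one
  enc_mul := fun a b => (encPerm_mul a.1 b.1).trans (permMulD_eq _ _).symm
  enc_inj := fun _ _ h => Subtype.ext (encPerm_injective h)

/-- A sum of powers of two over images of pairs of points. -/
def pairKey (F : List (ℕ × ℕ)) (q : ℕ) : ℕ :=
  (F.map fun p => 2 ^ (24 * getC q p.1 + getC q p.2)).sum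

/-- A permutation carrying the pairs onto themselves does not change the key. -/
theorem pairKey_mul (F : List (ℕ × ℕ)) (q u : ℕ) (hF : ∀ p ∈ F, p.1 < 24 ∧ p.2 < 24)
    (hperm : (F.map fun p => (getC u p.1, getC u p.2)).Perm F) :
    pairKey F (permMul q u) = pairKey F q := by
  have hlt : ∀ a b : ℕ, getC a b < 32 := fun a b => by
    rw [getC, Nat.and_two_pow_sub_one_eq_mod _ 5]
    exact Nat.mod_lt _ (by norm_num)
  have e : pairKey F (permMul q u) =
      pairKey (F.map fun p => (getC u p.1, getC u p.2)) q := by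
    rw [pairKey, pairKey, List.map_map]
    refine congrArg List.sum (List.map_congr_left fun p hp => ?_)
    simp only [Function.comp, permMul]
    rw [getC_pack (fun j _ => hlt q _) (hF p hp).1, getC_pack (fun j _ => hlt q _) (hF p hp).2]
  rw [e, pairKey, pairKey]
  exact List.Perm.sum_eq (hperm.map _)

end Cfsg.Agent.SchurBound
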