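import Cfsg.Agent.SchurBound.Cores

set_option autoImplicit false

/-!
Two cocycles separating two commuting pairs give a stem extension with kernel a product of two
cyclic groups.
-/

namespace Cfsg.Agent.SchurBound

open Subgroup
open scoped commutatorElement

universe v

variable {G : Type v} [Group G] {n : ℕ}

/-- The elements of two extensions with the same image. -/
def pairExt (C₁ C₂ : Cocycle G n) : Subgroup (CExt C₁ × CExt C₂) where
  carrier := {x | x.1.g = x.2.g}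
  one_mem' := rfl
  mul_mem' := fun {x y} (hx : x.1.g = x.2.g) (hy : y.1.g = y.2.g) => by
    show (x.1 * y.1).g = (x.2 * y.2).g
    rw [CExt.mul_g, CExt.mul_g, hx, hy]
  inv_mem' := fun {x} (hx : x.1.g = x.2.g) => by
    show x.1⁻¹.g = x.2⁻¹.g
    rw [CExt.inv_g, CExt.inv_g, hx]

theorem commutator_lift (C : Cocycle G n) {x y : G} (h : ⁅x, y⁆ = 1) :
    ⁅CExt.lift C x, CExt.lift C y⁆ = (⟨commVal C [(x, y)], 1⟩ : CExt C) := by
  have h' := commVal_spec C [(x, y)]
  simpa [h] using h'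

/-- Two cocycles on a perfect group with the values of the identity matrix on two commuting pairs
give a stem extension with kernel a product of two cyclic groups of order `n`. -/
theorem exists_stem_of_pair [Finite G] [NeZero n] (hperf : commutator G = ⊤)
    (C₁ C₂ : Cocycle G n) (x₁ y₁ x₂ y₂ : G) (h₁ : ⁅x₁, y₁⁆ = 1) (h₂ : ⁅x₂, y₂⁆ = 1)
    (v₁₁ : commVal C₁ [(x₁, y₁)] = 1) (v₂₁ : commVal C₂ [(x₁, y₁)] = 0)
    (v₁₂ : commVal C₁ [(x₂, y₂)] = 0) (v₂₂ : commVal C₂ [(x₂, y₂)] = 1) :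
    ∃ (W : Type v) (_ : Group W) (_ : Finite W) (σ : W →* G),
      Cfsg.IsStemExtension σ ∧ Nonempty (σ.ker ≃* Multiplicative (ZMod n × ZMod n)) := by
  let P := pairExt C₁ C₂
  let π : P →* G := (CExt.proj.comp (MonoidHom.fst _ _)).comp P.subtype
  let up : G → P := fun g => ⟨(CExt.lift C₁ g, CExt.lift C₂ g), rfl⟩
  have hπs : Function.Surjective π := fun g => ⟨up g, rfl⟩
  have hker : π.ker ≤ center P := by
    intro x hx
    have hg₁ : x.1.1.g = 1 := hx
    have hg₂ : x.1.2.g = 1 := (show x.1.1.g = x.1.2.g from x.2).symm.trans hg₁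
    rw [Subgroup.mem_center_iff]
    exact fun y => Subtype.ext (Prod.ext
      (Subgroup.mem_center_iff.1 (CExt.ker_proj_le_center (C := C₁) hg₁) y.1.1)
      (Subgroup.mem_center_iff.1 (CExt.ker_proj_le_center (C := C₂) hg₂) y.1.2))
  let D := commutator P
  let σ : D →* G := π.comp D.subtype
  have hstem : Cfsg.IsStemExtension σ := isStem_commutator hperf π hπs hker
  refine ⟨D, inferInstance, inferInstance, σ, hstem, ?_⟩
  let φ : σ.ker →* Multiplicative (ZMod n × ZMod n) :=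
    { toFun := fun x => Multiplicative.ofAdd (x.1.1.1.1.a, x.1.1.1.2.a)
      map_one' := rfl
      map_mul' := fun x y => by
        have hx₁ : x.1.1.1.1.g = 1 := x.2
        have hx₂ : x.1.1.1.2.g = 1 := x.1.1.2.symm.trans hx₁
        show Multiplicative.ofAdd (x.1.1.1.1.a + y.1.1.1.1.a + C₁.c x.1.1.1.1.g y.1.1.1.1.g,
          x.1.1.1.2.a + y.1.1.1.2.a + C₂.c x.1.1.1.2.g y.1.1.1.2.g) = _
        rw [hx₁, hx₂, C₁.one_left, C₂.one_left, add_zero, add_zero]
        rfl }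
  have hφi : Function.Injective φ := by
    intro x y h
    have hx₁ : x.1.1.1.1.g = 1 := x.2
    have hy₁ : y.1.1.1.1.g = 1 := y.2
    have hx₂ : x.1.1.1.2.g = 1 := x.1.1.2.symm.trans hx₁
    have hy₂ : y.1.1.1.2.g = 1 := y.1.1.2.symm.trans hy₁
    obtain ⟨ha, hb⟩ := Prod.ext_iff.1 (Multiplicative.ofAdd.injective h)
    exact Subtype.ext (Subtype.ext (Subtype.ext (Prod.ext (CExt.ext ha (hx₁.trans hy₁.symm))
      (CExt.ext hb (hx₂.trans hy₂.symm)))))
  have hmem : ∀ x y : G, ⁅x, y⁆ = 1 → ∃ z : σ.ker,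
      φ z = Multiplicative.ofAdd (commVal C₁ [(x, y)], commVal C₂ [(x, y)]) := by
    intro x y h
    have hD : ⁅up x, up y⁆ ∈ D :=
      Subgroup.commutator_mem_commutator (Subgroup.mem_top _) (Subgroup.mem_top _)
    have hσ : σ ⟨_, hD⟩ = 1 := by
      show π ⁅up x, up y⁆ = 1
      rw [map_commutatorElement]
      exact h
    refine ⟨⟨⟨_, hD⟩, hσ⟩, ?_⟩
    show Multiplicative.ofAdd (⁅CExt.lift C₁ x, CExt.lift C₁ y⁆.a, ⁅CExt.lift C₂ x, CExt.lift C₂ y⁆.a)
      = _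
    rw [commutator_lift C₁ h, commutator_lift C₂ h]
  have hφs : Function.Surjective φ := by
    obtain ⟨z₁, hz₁⟩ := hmem x₁ y₁ h₁
    obtain ⟨z₂, hz₂⟩ := hmem x₂ y₂ h₂
    rw [v₁₁, v₂₁] at hz₁
    rw [v₁₂, v₂₂] at hz₂
    intro m
    obtain ⟨⟨a, b⟩, rfl⟩ := Multiplicative.ofAdd.surjective m
    refine ⟨z₁ ^ a.val * z₂ ^ b.val, ?_⟩
    rw [map_mul, map_pow, map_pow, hz₁, hz₂, ← ofAdd_nsmul, ← ofAdd_nsmul, ← ofAdd_add]
    simp
  exact ⟨MulEquiv.ofBijective φ ⟨hφi, hφs⟩⟩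

end Cfsg.Agent.SchurBound
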