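import Cfsg.Agent.SchurBound.CoresCert
import Cfsg.Agent.SchurBound.Pair

set_option autoImplicit false

/-!
Two certificates with the same modulus give a stem extension with kernel a product of two cyclic
groups; transport of perfectness along an isomorphism.
-/

namespace Cfsg.Agent.SchurBound

open scoped commutatorElement

universe v

theorem commutator_eq_top_of_equiv {G H : Type*} [Group G] [Group H] (e : G ≃* H)
    (h : commutator G = ⊤) : commutator H = ⊤ := by
  rw [← CentralExt.map_commutator_top e.toMonoidHom e.surjective, h,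
    Subgroup.map_top_of_surjective _ e.surjective]

theorem value_one {mul : ℕ → ℕ → ℕ} (D : LCert) (h : D.valOK mul = true) :
    D.x < D.N ∧ D.y < D.N ∧ mul (D.Uc D.x) (D.Uc D.y) = mul (D.Uc D.y) (D.Uc D.x) ∧
      (D.coresSum D.ux D.py D.uy : ZMod D.n) - D.coresSum D.uy D.px D.ux = 1 := by
  simp only [LCert.valOK, Bool.and_eq_true, Nat.blt_eq] at h
  obtain ⟨⟨⟨hx, hy⟩, hc⟩, hv⟩ := h
  have hv' : D.coresSum D.ux D.py D.uy % D.n = (D.coresSum D.uy D.px D.ux + 1) % D.n :=
    Nat.eq_of_beq_eq_true hv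
  refine ⟨hx, hy, Nat.eq_of_beq_eq_true hc, ?_⟩
  rw [← ZMod.natCast_mod (D.coresSum D.ux D.py D.uy), hv', ZMod.natCast_mod]
  push_cast
  ring

theorem value_zero {mul : ℕ → ℕ → ℕ} (D : LCert) (h : D.zeroOK mul = true) :
    (D.coresSum D.ux D.py D.uy : ZMod D.n) - D.coresSum D.uy D.px D.ux = 0 := by
  simp only [LCert.zeroOK, Bool.and_eq_true, Nat.blt_eq] at h
  have hv' : D.coresSum D.ux D.py D.uy % D.n = D.coresSum D.uy D.px D.ux % D.n :=
    Nat.eq_of_beq_eq_true h.2
  rw [sub_eq_zero, ← ZMod.natCast_mod (D.coresSum D.ux D.py D.uy), hv', ZMod.natCast_mod]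

open Cfsg.Agent.SchurCert in
/-- Two cocycles on one subgroup give a stem extension with kernel of rank two. -/
theorem exists_stem_of_lcert_pair {G : Type v} [Group G] [Finite G] (C : Code G)
    (hperf : commutator G = ⊤) (D E : LCert) {n : ℕ} [NeZero n] (key : ℕ → ℕ)
    (hn : D.n = n)
    (hE : E = { D with f := E.f, x := E.x, y := E.y, px := E.px, ux := E.ux, py := E.py, uy := E.uy })
    (hkey : ∀ (g : G) (k : ℕ), k < D.N → key (C.mul (C.enc g) (D.Uc k)) = key (C.enc g))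
    (hgens : ∀ i < D.gens.length, ∃ g : G, C.enc g = D.gens.getD i C.one)
    (hcard : Nat.card G = D.m * D.N) (hD : D.Checked C.mul C.one key) (hcocE : E.cocOK = true)
    (htxE : D.tabOK C.mul E.x E.px E.ux = true) (htyE : D.tabOK C.mul E.y E.py E.uy = true)
    (hvalE : E.valOK C.mul = true)
    (hzeroD : LCert.zeroOK { D with f := E.f } C.mul = true)
    (hzeroE : LCert.zeroOK { E with f := D.f } C.mul = true) :
    ∃ (W : Type v) (_ : Group W) (_ : Finite W) (σ : W →* G),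
      Cfsg.IsStemExtension σ ∧ Nonempty (σ.ker ≃* Multiplicative (ZMod n × ZMod n)) := by
  subst hn
  generalize E.f = f' at *
  generalize E.x = x' at *
  generalize E.y = y' at *
  generalize E.px = px' at *
  generalize E.ux = ux' at *
  generalize E.py = py' at *
  generalize E.uy = uy' at *
  subst hE
  obtain ⟨hreps, hrank, hkeys, hsub, htbl, hcoc, htx, hty, hval⟩ := hD
  haveI : NeZero ({ D with f := f', x := x', y := y', px := px', ux := ux', py := py', uy := uy' } :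
      LCert).n := ‹_›
  obtain ⟨F₁, h₁⟩ := exists_cocycle_of_lcert C D key hkey hgens hcard hreps hrank hkeys hsub htbl
    hcoc
  obtain ⟨F₂, h₂⟩ := exists_cocycle_of_lcert C
    { D with f := f', x := x', y := y', px := px', ux := ux', py := py', uy := uy' } key hkey hgens
    hcard hreps hrank hkeys hsub htbl hcocE
  obtain ⟨hx, hy, hc, hv₁₁⟩ := value_one D hval
  obtain ⟨hx', hy', hc', hv₂₂⟩ := value_one _ hvalE
  have hv₂₁ := value_zero _ hzeroD
  have hv₁₂ := value_zero _ hzeroE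
  obtain ⟨X, Y, eX, eY, hXY, c₁₁⟩ := h₁ _ _ _ _ _ _ hx hy htx hty hc
  obtain ⟨X₂, Y₂, eX₂, eY₂, -, c₂₁⟩ := h₂ _ _ _ _ _ _ hx hy htx hty hc
  obtain ⟨X', Y', eX', eY', hXY', c₁₂⟩ := h₁ _ _ _ _ _ _ hx' hy' htxE htyE hc'
  obtain ⟨X₃, Y₃, eX₃, eY₃, -, c₂₂⟩ := h₂ _ _ _ _ _ _ hx' hy' htxE htyE hc'
  obtain rfl : X₂ = X := C.enc_inj (eX₂.trans eX.symm)
  obtain rfl : Y₂ = Y := C.enc_inj (eY₂.trans eY.symm)
  obtain rfl : X₃ = X' := C.enc_inj (eX₃.trans eX'.symm)
  obtain rfl : Y₃ = Y' := C.enc_inj (eY₃.trans eY'.symm)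
  exact exists_stem_of_pair hperf F₁ F₂ _ _ _ _ hXY hXY' (c₁₁.trans hv₁₁) (c₂₁.trans hv₂₁)
    (c₁₂.trans hv₁₂) (c₂₂.trans hv₂₂)

end Cfsg.Agent.SchurBound
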