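import Cfsg.Agent.SchurBound.M22

set_option autoImplicit false

/-!
The multiplier of M22 is cyclic of order twelve.
-/

namespace Cfsg.Agent.SchurBound

open Cfsg Cfsg.Agent.Golay Cfsg.Agent.SchurCert

universe v

theorem card_schurMult_M22 : Nat.card (CentralExt.schurMult Spor.M22) = 12 := by
  have hpos : Nat.card (CentralExt.schurMult Spor.M22) ≠ 0 := Nat.card_pos.ne'
  refine Nat.dvd_antisymm ?_
    (Nat.Coprime.mul_dvd_of_dvd_of_dvd (by norm_num : Nat.Coprime 4 3) four_dvd_m22_multiplier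
      three_dvd_m22_multiplier)
  rw [← Nat.factorization_le_iff_dvd hpos (by norm_num)]
  intro p
  by_cases hp : p.Prime
  swap
  · simp [Nat.factorization_eq_zero_of_not_prime _ hp]
  rcases eq_or_ne p 2 with rfl | h2
  · refine m22_two_part.trans ?_
    exact (Nat.prime_two.pow_dvd_iff_le_factorization (by norm_num)).1 (by norm_num)
  rcases eq_or_ne p 3 with rfl | h3
  · refine m22_three_part.trans ?_
    exact (Nat.prime_three.pow_dvd_iff_le_factorization (by norm_num)).1 (by norm_num)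
  haveI : Fact p.Prime := ⟨hp⟩
  rw [Nat.factorization_eq_zero_of_not_dvd (not_dvd_schurMult_of_sq_not_dvd p fun hsq => ?_)]
  · exact Nat.zero_le _
  rw [card_M22] at hsq
  have hle : p ^ 2 ≤ 443520 := Nat.le_of_dvd (by norm_num) hsq
  have hlt : p < 666 := by nlinarith
  have key : ∀ q < 666, q ^ 2 ∣ 443520 → q % 2 = 0 ∨ q % 3 = 0 ∨ q = 1 := by decide +kernel
  rcases key p hlt hsq with h | h | h
  · exact h2 ((Nat.prime_dvd_prime_iff_eq Nat.prime_two hp).1 (Nat.dvd_of_mod_eq_zero h)).symm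
  · exact h3 ((Nat.prime_dvd_prime_iff_eq Nat.prime_three hp).1 (Nat.dvd_of_mod_eq_zero h)).symm
  · exact hp.ne_one h

/-- A commutative group of order twelve with cyclic quotients of orders four and three is cyclic. -/
theorem mulEquiv_zmod_twelve {A : Type v} [CommGroup A] [Finite A] (hA : Nat.card A = 12)
    (f : A →* Multiplicative (ZMod 4)) (hf : Function.Surjective f) :
    Nonempty (A ≃* Multiplicative (ZMod 12)) := by
  obtain ⟨a, ha⟩ := hf (Multiplicative.ofAdd 1)
  obtain ⟨b, hb⟩ := @exists_prime_orderOf_dvd_card' A _ _ 3 ⟨Nat.prime_three⟩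
    (by rw [hA]; norm_num)
  have h4 : 4 ∣ orderOf a := by
    have h := orderOf_map_dvd f a
    rwa [ha, orderOf_ofAdd_eq_addOrderOf, ZMod.addOrderOf_one] at h
  have hd : orderOf a ∣ 12 := hA ▸ orderOf_dvd_natCard a
  have hg : ∃ g : A, orderOf g = 12 := by
    have hcases : orderOf a = 4 ∨ orderOf a = 12 := by
      have := Nat.le_of_dvd (by norm_num) hd
      obtain ⟨c, hc⟩ := h4
      have : c ≤ 3 := by omega
      interval_cases c <;> first | omega | (rw [hc] at hd; norm_num at hd)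
    rcases hcases with h | h
    · refine ⟨a * b, ?_⟩
      rw [(Commute.all a b).orderOf_mul_eq_mul_orderOf_of_coprime (by rw [h, hb]; norm_num), h, hb]
    · exact ⟨a, h⟩
  obtain ⟨g, hg⟩ := hg
  haveI : IsCyclic A := isCyclic_of_orderOf_eq_card g (hg.trans hA.symm)
  exact ⟨mulEquivOfCyclicCardEq (by rw [hA, Nat.card_congr Multiplicative.toAdd, Nat.card_zmod])⟩

theorem m22_hasCyclicSchurMultiplier_twelve : Cfsg.HasCyclicSchurMultiplier Spor.M22 12 := by
  haveI : NeZero m22CoresTwoCert.n := ⟨Nat.succ_ne_zero 3⟩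
  obtain ⟨W, _, _, σ, hσ, ⟨e⟩⟩ := m22CoresTwo_stem
  obtain ⟨π, hπ⟩ := CentralExt.exists_surjective_of_hasSchurMultiplier
    (CentralExt.hasSchurMultiplier_schurMult (G := Spor.M22)) hσ
  obtain ⟨ε⟩ := mulEquiv_zmod_twelve card_schurMult_M22 (e.toMonoidHom.comp π) (e.surjective.comp hπ)
  exact CentralExt.hasSchurMultiplier_iff.2 ⟨ε.symm⟩

end Cfsg.Agent.SchurBound
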