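import Cfsg.Agent.SchurCert.Cert
import Cfsg.Agent.CentralExt.Basic
import Mathlib.Algebra.BigOperators.Fin

set_option autoImplicit false

/-!
Lower bounds for Schur multipliers: a cocycle on a subgroup induces one on the group by summing
over the cosets, and the resulting central extension is evaluated on a product of commutators.
-/

namespace Cfsg.Agent.SchurBound

open Subgroup
open scoped commutatorElement

universe v

/-- A normalised cocycle with values modulo `n`. -/
structure Cocycle (G : Type v) [Group G] (n : ℕ) where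
  /-- The values. -/
  c : G → G → ZMod n
  assoc : ∀ a b d, c a b + c (a * b) d = c a (b * d) + c b d
  one_left : ∀ g, c 1 g = 0
  one_right : ∀ g, c g 1 = 0

variable {G : Type v} [Group G] {n : ℕ}

/-- The extension defined by a cocycle. -/
@[ext]
structure CExt (C : Cocycle G n) : Type v where
  /-- The central coordinate. -/
  a : ZMod n
  /-- The image. -/
  g : G

namespace CExt

variable {C : Cocycle G n}

instance : One (CExt C) := ⟨⟨0, 1⟩⟩

instance : Mul (CExt C) := ⟨fun x y => ⟨x.a + y.a + C.c x.g y.g, x.g * y.g⟩⟩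

instance : Inv (CExt C) := ⟨fun x => ⟨-x.a - C.c x.g⁻¹ x.g, x.g⁻¹⟩⟩

@[simp] theorem one_a : (1 : CExt C).a = 0 := rfl

@[simp] theorem one_g : (1 : CExt C).g = 1 := rfl

@[simp] theorem mul_a (x y : CExt C) : (x * y).a = x.a + y.a + C.c x.g y.g := rfl

@[simp] theorem mul_g (x y : CExt C) : (x * y).g = x.g * y.g := rfl

@[simp] theorem inv_a (x : CExt C) : x⁻¹.a = -x.a - C.c x.g⁻¹ x.g := rfl

@[simp] theorem inv_g (x : CExt C) : x⁻¹.g = x.g⁻¹ := rfl

instance : Group (CExt C) :=
  Group.ofLeftAxioms
    (fun x y z => by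
      ext
      · simp only [mul_a, mul_g]
        linear_combination C.assoc x.g y.g z.g
      · simp [mul_assoc])
    (fun x => by
      ext
      · simp [C.one_left]
      · simp)
    (fun x => by
      ext
      · simp only [mul_a, inv_a, inv_g, one_a]
        ring
      · simp)

/-- The projection. -/
def proj : CExt C →* G where
  toFun := CExt.g
  map_one' := rfl
  map_mul' _ _ := rfl

/-- The section. -/
def lift (C : Cocycle G n) (g : G) : CExt C := ⟨0, g⟩

/-- The equivalence with pairs. -/
def equivProd (C : Cocycle G n) : CExt C ≃ ZMod n × G where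
  toFun x := (x.a, x.g)
  invFun p := ⟨p.1, p.2⟩
  left_inv _ := rfl
  right_inv _ := rfl

instance [NeZero n] [Finite G] : Finite (CExt C) := Finite.of_equiv _ (equivProd C).symm

theorem ker_proj_le_center : (proj (C := C)).ker ≤ center (CExt C) := by
  intro x hx
  have h1 : x.g = 1 := hx
  rw [Subgroup.mem_center_iff]
  intro y
  ext
  · simp only [mul_a, h1, C.one_left, C.one_right]
    ring
  · simp [h1]

end CExt

/-- The value of the product of the commutators of the lifts of a list of pairs. -/
def commVal (C : Cocycle G n) : List (G × G) → ZMod n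
  | [] => 0
  | p :: L => (C.c p.1 p.2 - C.c p.2 p.1 - C.c ⁅p.1, p.2⁆ (p.2 * p.1)) + commVal C L +
      C.c ⁅p.1, p.2⁆ ((L.map fun q => ⁅q.1, q.2⁆).prod)

theorem commVal_spec (C : Cocycle G n) : ∀ L : List (G × G),
    ((L.map fun p => ⁅CExt.lift C p.1, CExt.lift C p.2⁆).prod) =
      (⟨commVal C L, (L.map fun p => ⁅p.1, p.2⁆).prod⟩ : CExt C)
  | [] => rfl
  | (x, y) :: L => by
    have h : ⁅CExt.lift C x, CExt.lift C y⁆ =
        (⟨C.c x y - C.c y x - C.c ⁅x, y⁆ (y * x), ⁅x, y⁆⟩ : CExt C) := by
      have h' : CExt.lift C x * CExt.lift C y =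
          (⟨C.c x y - C.c y x - C.c ⁅x, y⁆ (y * x), ⁅x, y⁆⟩ : CExt C) *
            (CExt.lift C y * CExt.lift C x) := by
        ext
        · simp only [CExt.mul_a, CExt.mul_g, CExt.lift]
          ring
        · simp only [CExt.mul_g, CExt.lift, commutatorElement_def]
          group
      calc ⁅CExt.lift C x, CExt.lift C y⁆
          = CExt.lift C x * CExt.lift C y * (CExt.lift C y * CExt.lift C x)⁻¹ := by
            rw [commutatorElement_def]; group
        _ = _ := by rw [h', mul_inv_cancel_right]
    rw [List.map_cons, List.prod_cons, commVal_spec C L, h]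
    ext
    · simp [commVal]
    · simp

/-- The commutator subgroup of a central extension of a perfect group is a stem extension. -/
theorem isStem_commutator {E : Type v} [Group E] (hperf : commutator G = ⊤) (π : E →* G)
    (hπs : Function.Surjective π) (hker : π.ker ≤ center E) :
    Cfsg.IsStemExtension (π.comp (commutator E).subtype) := by
  let D := commutator E
  let σ : D →* G := π.comp D.subtype
  have hσs : Function.Surjective σ := by
    intro g
    have hg : g ∈ (commutator E).map π := by
      rw [CentralExt.map_commutator_top π hπs, hperf]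
      exact Subgroup.mem_top g
    obtain ⟨x, hx, rfl⟩ := hg
    exact ⟨⟨x, hx⟩, rfl⟩
  have hsup : D ⊔ center E = ⊤ := by
    refine eq_top_iff.2 fun x _ => ?_
    obtain ⟨d, hd⟩ := hσs (π x)
    have hk : (d : E)⁻¹ * x ∈ π.ker := by
      rw [MonoidHom.mem_ker, map_mul, map_inv, ← hd]
      exact inv_mul_cancel _
    rw [show x = (d : E) * ((d : E)⁻¹ * x) by group]
    exact mul_mem (mem_sup_left d.2) (mem_sup_right (hker hk))
  have hperfD : commutator D = ⊤ := by
    refine Subgroup.map_injective (Subgroup.subtype_injective D) ?_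
    rw [← MonoidHom.range_eq_map, Subgroup.range_subtype, Subgroup.map_subtype_commutator]
    refine le_antisymm (Subgroup.commutator_le_self D) ?_
    show commutator E ≤ ⁅D, D⁆
    rw [_root_.commutator_def, Subgroup.commutator_le]
    intro a _ b _
    have dec : ∀ y : E, ∃ d ∈ D, ∃ w ∈ center E, y = d * w := by
      intro y
      have hy : y ∈ D ⊔ center E := hsup ▸ Subgroup.mem_top y
      rw [← SetLike.mem_coe, Subgroup.mul_normal] at hy
      obtain ⟨d, hd, w, hw, rfl⟩ := hy
      exact ⟨d, hd, w, hw, rfl⟩
    obtain ⟨d, hd, w, hw, rfl⟩ := dec a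
    obtain ⟨d', hd', w', hw', rfl⟩ := dec b
    have hwc := fun y => Subgroup.mem_center_iff.1 hw y
    have hwc' := fun y => Subgroup.mem_center_iff.1 hw' y
    have : ⁅d * w, d' * w'⁆ = ⁅d, d'⁆ := by
      simp only [commutatorElement_def, mul_inv_rev]
      calc d * w * (d' * w') * (w⁻¹ * d⁻¹) * (w'⁻¹ * d'⁻¹)
          = d * (d' * w * w') * (w⁻¹ * d⁻¹) * (w'⁻¹ * d'⁻¹) := by rw [hwc d']; group
        _ = d * d' * (w' * w * w⁻¹) * d⁻¹ * w'⁻¹ * d'⁻¹ := by rw [hwc w']; group
        _ = d * d' * (d⁻¹ * w') * w'⁻¹ * d'⁻¹ := by rw [mul_inv_cancel_right, hwc' d⁻¹]; group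
        _ = d * d' * d⁻¹ * d'⁻¹ := by group
    rw [this]
    exact Subgroup.commutator_mem_commutator hd hd'
  have hstem : Cfsg.IsStemExtension σ := by
    refine ⟨hσs, fun x hx => ?_, hperfD ▸ le_top⟩
    rw [Subgroup.mem_center_iff]
    exact fun y => Subtype.ext (Subgroup.mem_center_iff.1 (hker hx) (y : E))
  exact hstem

/-- A cocycle on a perfect group whose value on a product of commutators equal to one is one gives
a stem extension with cyclic kernel of order `n`. -/
theorem exists_stem_of_cocycle [Finite G] [NeZero n] (hperf : commutator G = ⊤) (C : Cocycle G n)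
    (L : List (G × G)) (hprod : (L.map fun p => ⁅p.1, p.2⁆).prod = 1) (hval : commVal C L = 1) :
    ∃ (W : Type v) (_ : Group W) (_ : Finite W) (σ : W →* G),
      Cfsg.IsStemExtension σ ∧ Nonempty (σ.ker ≃* Multiplicative (ZMod n)) := by
  let π : CExt C →* G := CExt.proj
  have hπs : Function.Surjective π := fun g => ⟨CExt.lift C g, rfl⟩
  let D := commutator (CExt C)
  let σ : D →* G := π.comp D.subtype
  have hstem : Cfsg.IsStemExtension σ := isStem_commutator hperf π hπs CExt.ker_proj_le_center
  refine ⟨D, inferInstance, inferInstance, σ, hstem, ?_⟩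
  let φ : σ.ker →* Multiplicative (ZMod n) :=
    { toFun := fun x => Multiplicative.ofAdd x.1.1.a
      map_one' := rfl
      map_mul' := fun x y => by
        have hx : x.1.1.g = 1 := x.2
        show Multiplicative.ofAdd (x.1.1.a + y.1.1.a + C.c x.1.1.g y.1.1.g) = _
        rw [hx, C.one_left, add_zero]
        rfl }
  have hφi : Function.Injective φ := by
    intro x y h
    refine Subtype.ext (Subtype.ext (CExt.ext (Multiplicative.ofAdd.injective h) ?_))
    exact (show x.1.1.g = 1 from x.2).trans (show y.1.1.g = 1 from y.2).symm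
  have hφs : Function.Surjective φ := by
    have hz : (L.map fun p => ⁅CExt.lift C p.1, CExt.lift C p.2⁆).prod ∈ D :=
      list_prod_mem fun x hx => by
        obtain ⟨p, -, rfl⟩ := List.mem_map.1 hx
        exact Subgroup.commutator_mem_commutator (Subgroup.mem_top _) (Subgroup.mem_top _)
    rw [commVal_spec, hprod, hval] at hz
    let z : σ.ker := ⟨⟨_, hz⟩, rfl⟩
    intro m
    refine ⟨z ^ (Multiplicative.toAdd m).val, ?_⟩
    rw [map_pow, show φ z = Multiplicative.ofAdd (1 : ZMod n) from rfl, ← ofAdd_nsmul,
      nsmul_eq_mul, mul_one, ZMod.natCast_zmod_val]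
    rfl
  exact ⟨MulEquiv.ofBijective φ ⟨hφi, hφs⟩⟩

/-- Coset data: every element is uniquely a representative times an element of the subgroup. -/
structure Cosets (G : Type v) [Group G] (m N : ℕ) where
  /-- The representatives. -/
  T : Fin m → G
  /-- The elements of the subgroup. -/
  U : Fin N → G
  /-- The multiplication table of the subgroup. -/
  mt : Fin N → Fin N → Fin N
  /-- The number of the identity. -/
  e : Fin N
  U_e : U e = 1
  U_mul : ∀ k l, U k * U l = U (mt k l)
  bij : Function.Bijective fun p : Fin m × Fin N => T p.1 * U p.2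

namespace Cosets

variable {m N : ℕ} (D : Cosets G m N)

/-- The decomposition. -/
noncomputable def dec : G ≃ Fin m × Fin N := (Equiv.ofBijective _ D.bij).symm

/-- The coset reached. -/
noncomputable def act (g : G) (i : Fin m) : Fin m := (D.dec (g * D.T i)).1

/-- The element of the subgroup. -/
noncomputable def sub (g : G) (i : Fin m) : Fin N := (D.dec (g * D.T i)).2

theorem spec (g : G) (i : Fin m) : D.T (D.act g i) * D.U (D.sub g i) = g * D.T i :=
  (Equiv.ofBijective _ D.bij).apply_symm_apply _

theorem eq_of_mul {i j : Fin m} {k l : Fin N} (h : D.T i * D.U k = D.T j * D.U l) :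
    i = j ∧ k = l := by
  have := @D.bij.1 (i, k) (j, l) h
  exact ⟨congrArg Prod.fst this, congrArg Prod.snd this⟩

theorem act_sub_eq {g : G} {i j : Fin m} {k : Fin N} (h : g * D.T i = D.T j * D.U k) :
    D.act g i = j ∧ D.sub g i = k := D.eq_of_mul ((D.spec g i).trans h)

theorem one_act (i : Fin m) : D.act 1 i = i ∧ D.sub 1 i = D.e :=
  D.act_sub_eq (by rw [D.U_e, one_mul, mul_one])

theorem mul_act (g h : G) (i : Fin m) :
    D.act (g * h) i = D.act g (D.act h i) ∧
      D.sub (g * h) i = D.mt (D.sub g (D.act h i)) (D.sub h i) :=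
  D.act_sub_eq (by rw [← D.U_mul, ← mul_assoc, D.spec, mul_assoc, mul_assoc, D.spec])

theorem act_bijective (g : G) : Function.Bijective (D.act g) := by
  refine Function.bijective_iff_has_inverse.2 ⟨D.act g⁻¹, fun i => ?_, fun i => ?_⟩
  · rw [← (D.mul_act g⁻¹ g i).1, inv_mul_cancel, (D.one_act i).1]
  · rw [← (D.mul_act g g⁻¹ i).1, mul_inv_cancel, (D.one_act i).1]

/-- The induced cocycle. -/
noncomputable def cores (f : Fin N → Fin N → ZMod n)
    (hf : ∀ a b d, f a b + f (D.mt a b) d = f a (D.mt b d) + f b d)
    (h0 : ∀ k, f D.e k = 0) (h0' : ∀ k, f k D.e = 0) : Cocycle G n where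
  c g h := ∑ i, f (D.sub g (D.act h i)) (D.sub h i)
  assoc a b d := by
    rw [← (D.act_bijective d).sum_comp fun i => f (D.sub a (D.act b i)) (D.sub b i),
      ← Finset.sum_add_distrib, ← Finset.sum_add_distrib]
    refine Finset.sum_congr rfl fun i _ => ?_
    rw [(D.mul_act a b _).2, (D.mul_act b d i).1, (D.mul_act b d i).2]
    exact hf _ _ _
  one_left g := Finset.sum_eq_zero fun i _ => by rw [(D.one_act _).2, h0]
  one_right g := Finset.sum_eq_zero fun i _ => by rw [(D.one_act i).2, h0']

theorem cores_c (f : Fin N → Fin N → ZMod n) (hf h0 h0') (g h : G) :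
    (D.cores f hf h0 h0').c g h = ∑ i, f (D.sub g (D.act h i)) (D.sub h i) := rfl

end Cosets

end Cfsg.Agent.SchurBound
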