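import Cfsg.Agent.SchurBound.TitsEqs
import Cfsg.Agent.SchurCert.LinFast

set_option autoImplicit false
set_option maxRecDepth 20000

/-!
The checks of the certificates for the Tits group.
-/

namespace Cfsg.Agent.SchurBound

open Cfsg.Agent.SchurCert

theorem titsTwo_wf : titsTwoCert.P.wf = true := by decide +kernel

theorem titsTwo_group : titsTwoCert.groupOK mul52 one52 = true := by decide +kernel

theorem titsTwo_rows_fst :
    (titsTwoCert.rows.take 29).all (titsTwoCert.rowOK mul52 one52) = true := by decide +kernel

theorem titsTwo_rows_snd :
    (titsTwoCert.rows.drop 29).all (titsTwoCert.rowOK mul52 one52) = true := by decide +kernel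

theorem titsTwo_eqsOK : titsTwoCert.eqsOK = true := by decide +kernel

theorem titsTwo_packs : (titsTwoCert.rows.map titsTwoCert.rowEq).map
    (fun e => (packCount e.1, packCount e.2)) = titsTwoPacks := by decide +kernel

theorem titsTwo_fast : titsTwoCert.linFastOK titsTwoPacks = true := by decide +kernel

theorem titsTwo_lin : titsTwoCert.linOK = true :=
  Cert.linOK_of_linFastOK _ titsTwo_eqsOK titsTwo_packs titsTwo_fast

theorem titsTwo_check : titsTwoCert.check mul52 one52 = true := by
  have h : titsTwoCert.rows.all (titsTwoCert.rowOK mul52 one52) = true := by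
    rw [← List.take_append_drop 29 titsTwoCert.rows, List.all_append, titsTwo_rows_fst,
      titsTwo_rows_snd]
    rfl
  rw [Cert.check, titsTwo_wf, titsTwo_group, h, titsTwo_lin]
  rfl

theorem titsThree_check : titsThreeCert.check mul52 one52 = true := by decide +kernel

theorem titsFive_check : titsFiveCert.check mul52 one52 = true := by decide +kernel

end Cfsg.Agent.SchurBound
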