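import Cfsg.Agent.SchurBound.BitMatrix
import Cfsg.Agent.SchurBound.TitsData
import Cfsg.Agent.SchurBound.TitsCheck
import Cfsg.Agent.SchurBound.CoresCert
import Cfsg.Agent.SchurCert.Trivial
import Cfsg.Agent.ChevSmall.Tits
import Mathlib.GroupTheory.Index

set_option autoImplicit false
set_option maxRecDepth 20000

/-!
The Schur multiplier of the Tits group is trivial.
-/

namespace Cfsg.Agent.SchurBound

open Cfsg.Lie Cfsg.Agent.SchurCert Cfsg.Agent.ChevSmall
open scoped Matrix commutatorElement

/-- The coordinates, numbered as in the masks. -/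
def titsIdx : chevF4.Idx ≃ Fin 52 :=
  finSumFinEquiv.trans (finCongr Tits.dim_eq)

theorem titsIdx_val (i : chevF4.Idx) : (titsIdx i : ℕ) = Chev.code chevF4 i := by
  cases i <;> simp [titsIdx, Chev.code]

/-- The matrices of the elements, with numbered coordinates. -/
def titsMatFull : Tits.TG →* Matrix (Fin 52) (Fin 52) (ZMod 2) :=
  ((Matrix.reindexAlgEquiv (ZMod 2) (ZMod 2) titsIdx).toAlgHom.toRingHom.toMonoidHom).comp
    ((Units.coeHom _).comp (twistedF4 (ZMod 2) 1).subtype)

theorem titsMatFull_apply (g : Tits.TG) (i j : Fin 52) :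
    titsMatFull g i j = Tits.mat g (titsIdx.symm i) (titsIdx.symm j) := rfl

theorem titsMatFull_injective : Function.Injective titsMatFull := fun g h e => by
  refine Subtype.ext (Units.ext ?_)
  exact (Matrix.reindexAlgEquiv (ZMod 2) (ZMod 2) titsIdx).injective e

/-- The code of the whole group. -/
def titsCodeFull : Code Tits.TG := bit52Code titsMatFull titsMatFull_injective

/-- The code of the derived subgroup. -/
def titsCode : Code TitsGroup :=
  bit52Code (titsMatFull.comp (commutator Tits.TG).subtype)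
    (titsMatFull_injective.comp Subtype.val_injective)

theorem titsCode_enc (g : TitsGroup) : titsCode.enc g = titsCodeFull.enc (g : Tits.TG) := rfl

theorem titsLetter_cols : ∀ k < 4, titsLetterCodes.getD k 0 < 2 ^ (52 * 52) ∧
    ∀ c < 52, getN 52 (titsLetterCodes.getD k 0) c = Tits.appL (Tits.mask k) (2 ^ c) 0 := by
  decide +kernel

theorem titsLetter_enc {k : ℕ} (hk : k < 4) :
    titsCodeFull.enc (Tits.genG k) = titsLetterCodes.getD k 0 := by
  obtain ⟨hlt, hcol⟩ := titsLetter_cols k hk
  refine Nat.eq_of_testBit_eq fun t => ?_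
  show (encB 52 (titsMatFull (Tits.genG k))).testBit t = _
  by_cases ht : t < 52 * 52
  · have hi : t % 52 < 52 := Nat.mod_lt _ (by norm_num)
    have hj : t / 52 < 52 := (Nat.div_lt_iff_lt_mul (by norm_num)).2 ht
    conv_lhs => rw [show t = 52 * ((⟨t / 52, hj⟩ : Fin 52) : ℕ) + ((⟨t % 52, hi⟩ : Fin 52) : ℕ) from
      (Nat.div_add_mod t 52).symm]
    rw [testBit_encB, titsMatFull_apply]
    have e := congrFun (Tits.act_gen hk (2 ^ (t / 52))) (titsIdx.symm ⟨t % 52, hi⟩)
    have hc : ∀ a : Fin 52, Chev.code chevF4 (titsIdx.symm a) = a := fun a => by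
      rw [← titsIdx_val, Equiv.apply_symm_apply]
    have hsingle : Tits.vec (2 ^ (t / 52)) = Pi.single (titsIdx.symm ⟨t / 52, hj⟩) 1 := by
      have h' := Tits.vecOf_two_pow (D := chevF4) (titsIdx.symm ⟨t / 52, hj⟩)
      rw [hc] at h'
      exact h'
    rw [hsingle, Matrix.mulVec_single_one, ← hcol _ hj] at e
    simp only [Matrix.col_apply, Tits.vec, Tits.vecOf, hc] at e
    rw [e, getN, show (Nat.mod (Nat.shiftRight (titsLetterCodes.getD k 0) (Nat.mul 52 (t / 52)))
      (Nat.pow 2 52)) = (titsLetterCodes.getD k 0 >>> (52 * (t / 52))) % 2 ^ 52 from rfl,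
      Nat.testBit_mod_two_pow, Nat.testBit_shiftRight, Nat.div_add_mod]
    simp [hi]
  · rw [testBit_encB_ge _ (Nat.not_lt.1 ht), eq_comm]
    exact Nat.testBit_lt_two_pow (lt_of_lt_of_le hlt (Nat.pow_le_pow_right (by norm_num)
      (Nat.not_lt.1 ht)))

theorem titsWord_enc : ∀ w : List ℕ, (∀ k ∈ w, k < 4) → titsCodeFull.enc (Tits.wordG w) =
    (w.map fun k => titsLetterCodes.getD k 0).foldr mul52 one52
  | [], _ => titsCodeFull.enc_one
  | k :: w, h => by
    rw [show Tits.wordG (k :: w) = Tits.genG k * Tits.wordG w by simp [Tits.wordG],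
      titsCodeFull.enc_mul, titsWord_enc w fun x hx => h x (List.mem_cons_of_mem _ hx),
      titsLetter_enc (h k List.mem_cons_self), List.map_cons, List.foldr_cons]
    rfl

theorem wordG_sq_mem (w : List ℕ) : Tits.wordG (w ++ w) ∈ commutator Tits.TG := by
  rw [Tits.wordG_append]
  exact Subgroup.mul_self_mem_of_index_two Tits.index_commutator _

theorem wordG_comm_mem {i j : ℕ} (hi : i < 4) (hj : j < 4) :
    Tits.wordG ([i, j] ++ Tits.invLetter i ++ Tits.invLetter j) ∈ commutator Tits.TG := by
  rw [Tits.wordG_append, Tits.wordG_append, Tits.wordG_invLetter hi, Tits.wordG_invLetter hj,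
    show Tits.wordG [i, j] = Tits.genG i * Tits.genG j by simp [Tits.wordG], ← commutatorElement_def,
    _root_.commutator_def]
  exact Subgroup.commutator_mem_commutator (Subgroup.mem_top _) (Subgroup.mem_top _)

theorem titsBase_mem : ∀ w ∈ titsBaseWords, (∀ k ∈ w, k < 4) ∧
    Tits.wordG w ∈ commutator Tits.TG := by
  intro w hw
  simp only [titsBaseWords, List.mem_cons, List.not_mem_nil, or_false] at hw
  rcases hw with rfl | rfl | rfl | rfl | rfl | rfl | rfl | rfl <;> refine ⟨by decide, ?_⟩
  exacts [wordG_sq_mem [2], wordG_sq_mem [3],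
    wordG_comm_mem (i := 0) (j := 1) (by norm_num) (by norm_num),
    wordG_comm_mem (i := 0) (j := 2) (by norm_num) (by norm_num),
    wordG_comm_mem (i := 0) (j := 3) (by norm_num) (by norm_num),
    wordG_comm_mem (i := 1) (j := 2) (by norm_num) (by norm_num),
    wordG_comm_mem (i := 1) (j := 3) (by norm_num) (by norm_num),
    wordG_comm_mem (i := 2) (j := 3) (by norm_num) (by norm_num)]

/-- A straight-line program. -/
def slpRun {α : Type*} (m : α → α → α) (one : α) (base : List α) (steps : List (ℕ × ℕ)) : List α :=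
  steps.foldl (fun L s => L ++ [m (L.getD s.1 one) (L.getD s.2 one)]) base

theorem map_slpRun {G : Type*} [Group G] (C : Code G) (steps : List (ℕ × ℕ)) :
    ∀ base : List G, (slpRun (· * ·) 1 base steps).map C.enc =
      slpRun C.mul C.one (base.map C.enc) steps := by
  induction steps with
  | nil => intro base; rfl
  | cons s steps ih =>
    intro base
    show (slpRun (· * ·) 1 (base ++ [_]) steps).map C.enc = _
    rw [ih, List.map_append, List.map_cons, List.map_nil, C.enc_mul, ← List.getD_map (f := C.enc),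
      ← List.getD_map (f := C.enc), C.enc_one]
    rfl

/-- The basic elements. -/
noncomputable def titsBase : List TitsGroup :=
  titsBaseWords.attach.map fun w => ⟨Tits.wordG w.1, (titsBase_mem w.1 w.2).2⟩

theorem map_titsBase : titsBase.map titsCode.enc =
    titsBaseWords.map fun w => (w.map fun k => titsLetterCodes.getD k 0).foldr mul52 one52 := by
  rw [titsBase, List.map_map]
  conv_rhs => rw [← List.attach_map_subtype_val titsBaseWords, List.map_map]
  refine List.map_congr_left fun w _ => ?_
  exact titsWord_enc w.1 (titsBase_mem w.1 w.2).1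

/-- The codes computed by the program. -/
def titsRun : List ℕ :=
  slpRun mul52 one52
    (titsBaseWords.map fun w => (w.map fun k => titsLetterCodes.getD k 0).foldr mul52 one52)
    titsSteps

theorem titsRun_spec :
    (titsTwoIdx.map fun i => titsRun.getD i one52) = titsTwoCert.gens ∧
    (titsTwoFusIdx.map fun i => titsRun.getD i one52) = titsTwoCert.gs ∧
    (titsThreeIdx.map fun i => titsRun.getD i one52) = titsThreeCert.gens ∧
    (titsThreeFusIdx.map fun i => titsRun.getD i one52) = titsThreeCert.gs ∧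
    (titsFiveIdx.map fun i => titsRun.getD i one52) = titsFiveCert.gens ∧
    (titsFiveFusIdx.map fun i => titsRun.getD i one52) = titsFiveCert.gs := by
  decide +kernel

theorem exists_enc_titsRun (i : ℕ) : ∃ g : TitsGroup, titsCode.enc g = titsRun.getD i one52 := by
  refine ⟨(slpRun (· * ·) 1 titsBase titsSteps).getD i 1, ?_⟩
  rw [← List.getD_map (f := titsCode.enc), map_slpRun, map_titsBase, titsCode.enc_one]
  rfl

theorem exists_enc_list (idx L : List ℕ) (hL : (idx.map fun i => titsRun.getD i one52) = L)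
    (i : ℕ) : ∃ g : TitsGroup, titsCode.enc g = L.getD i titsCode.one := by
  subst hL
  by_cases hi : i < idx.length
  · obtain ⟨g, hg⟩ := exists_enc_titsRun idx[i]
    exact ⟨g, hg.trans (by simp [List.getD_eq_getElem?_getD, hi])⟩
  · exact ⟨1, by rw [titsCode.enc_one, List.getD_eq_default _ _ (by simpa using Nat.not_lt.1 hi)]⟩

theorem tits_not_dvd (D : Cert) (p N m : ℕ) [Fact p.Prime] (gi fi : List ℕ)
    (hg : (gi.map fun i => titsRun.getD i one52) = D.gens)
    (hf : (fi.map fun i => titsRun.getD i one52) = D.gs)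
    (hP : D.P.p = p) (hn : D.P.p ^ D.P.n = N) (hm : 17971200 = N * m) (hpm : ¬ p ∣ m)
    (hchk : D.check mul52 one52 = true) :
    ¬ p ∣ Nat.card (CentralExt.schurMult TitsGroup) := by
  haveI : Finite TitsGroup := Nat.finite_of_card_ne_zero (by rw [Tits.card_derived]; norm_num)
  choose gen hgen using exists_enc_list gi D.gens hg
  choose gsE hgs using exists_enc_list fi D.gs hf
  have hc := hchk
  simp only [Cert.check, Bool.and_eq_true] at hc
  obtain ⟨-, hcard⟩ := card_initGroup_of_groupOK titsCode D (hP.symm ▸ Fact.out) gen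
    (fun i _ => hgen i) hc.1.1.1 hc.1.1.2
  refine not_dvd_schurMult_of_cert titsCode D p hP gen gsE (fun i _ => hgen i) hgs ?_ hchk
  rwa [index_initGroup Tits.card_derived (hcard.trans hn) hm]

theorem tits_multiplier : Cfsg.HasCyclicSchurMultiplier TitsGroup 1 := by
  haveI : Finite TitsGroup := Nat.finite_of_card_ne_zero (by rw [Tits.card_derived]; norm_num)
  obtain ⟨h1, h2, h3, h4, h5, h6⟩ := titsRun_spec
  have hcard : Nat.card (CentralExt.schurMult TitsGroup) = 1 := by
    by_contra hne
    obtain ⟨p, hp, hdvd⟩ := Nat.exists_prime_and_dvd hne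
    haveI : Fact p.Prime := ⟨hp⟩
    rcases eq_or_ne p 2 with rfl | hp2
    · exact tits_not_dvd titsTwoCert 2 2048 8775 _ _ h1 h2 rfl rfl (by norm_num) (by norm_num)
        titsTwo_check hdvd
    rcases eq_or_ne p 3 with rfl | hp3
    · exact tits_not_dvd titsThreeCert 3 27 665600 _ _ h3 h4 rfl rfl (by norm_num) (by norm_num)
        titsThree_check hdvd
    rcases eq_or_ne p 5 with rfl | hp5
    · exact tits_not_dvd titsFiveCert 5 25 718848 _ _ h5 h6 rfl rfl (by norm_num) (by norm_num)
        titsFive_check hdvd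
    refine not_dvd_schurMult_of_sq_not_dvd p (fun hsq => ?_) hdvd
    rw [Tits.card_derived] at hsq
    have hpd : p ∣ 17971200 := (dvd_pow_self p two_ne_zero).trans hsq
    have hfac : p ∣ 2 ^ 11 * 3 ^ 3 * 5 ^ 2 * 13 := by norm_num; exact hpd
    rcases hp.dvd_mul.1 hfac with h | h
    · rcases hp.dvd_mul.1 h with h | h
      · rcases hp.dvd_mul.1 h with h | h
        · exact hp2 ((Nat.prime_dvd_prime_iff_eq hp Nat.prime_two).1 (hp.dvd_of_dvd_pow h))
        · exact hp3 ((Nat.prime_dvd_prime_iff_eq hp Nat.prime_three).1 (hp.dvd_of_dvd_pow h))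
      · exact hp5 ((Nat.prime_dvd_prime_iff_eq hp Nat.prime_five).1 (hp.dvd_of_dvd_pow h))
    · obtain rfl := (Nat.prime_dvd_prime_iff_eq hp (by norm_num)).1 h
      norm_num at hsq
  obtain ⟨hsub, -⟩ := Nat.card_eq_one_iff_unique.1 hcard
  let e : Multiplicative (ZMod 1) ≃* CentralExt.schurMult TitsGroup :=
    { toFun := fun _ => 1
      invFun := fun _ => 1
      left_inv := fun _ => Subsingleton.elim _ _
      right_inv := fun _ => Subsingleton.elim _ _
      map_mul' := fun _ _ => (one_mul 1).symm }
  exact CentralExt.hasSchurMultiplier_iff.2 ⟨e⟩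

end Cfsg.Agent.SchurBound
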