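import Cfsg.Agent.SchurCert.Cert
import Mathlib.Data.ZMod.Basic
import Mathlib.Data.Matrix.Mul
import Mathlib.Data.Nat.Bitwise

set_option autoImplicit false

/-!
Codes of matrices over two elements: the entry in row `i` and column `j` is the bit at place
`N * j + i`. The product is computed with one multiplication of numbers for each column.
-/

namespace Cfsg.Agent.SchurBound

open Cfsg.Agent.SchurCert

/-- The number with the first `n` bits of a function. -/
def bitsN (f : ℕ → Bool) : ℕ → ℕ :=
  Nat.rec 0 fun k ih => bif f k then Nat.lor ih (Nat.pow 2 k) else ih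

theorem testBit_bitsN (f : ℕ → Bool) : ∀ n t : ℕ,
    (bitsN f n).testBit t = (decide (t < n) && f t)
  | 0, t => by simp [bitsN]
  | n + 1, t => by
    show (bif f n then bitsN f n ||| 2 ^ n else bitsN f n).testBit t = _
    rcases lt_trichotomy t n with h | rfl | h
    · cases hf : f n <;> simp [testBit_bitsN f n t, h, Nat.testBit_two_pow, h.ne', Nat.lt_succ_of_lt h]
    · cases hf : f t <;> simp [testBit_bitsN f t t, hf]
    · cases hf : f n <;>
        simp [testBit_bitsN f n t, Nat.testBit_two_pow, h.ne, Nat.not_lt.2 h.le,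
          Nat.not_lt.2 (Nat.succ_le_of_lt h)]

/-- One bit at the bottom of each of `n` blocks of width `N`. -/
def onesB (N : ℕ) : ℕ → ℕ :=
  Nat.rec 0 fun k ih => Nat.lor ih (Nat.pow 2 (Nat.mul N k))

theorem testBit_onesB (N : ℕ) : ∀ n t : ℕ, (onesB N n).testBit t = decide (∃ k < n, t = N * k)
  | 0, t => by simp [onesB]
  | n + 1, t => by
    show (onesB N n ||| 2 ^ (N * n)).testBit t = _
    rw [Nat.testBit_or, testBit_onesB N n t, Nat.testBit_two_pow, ← Bool.decide_or]
    refine decide_eq_decide.2 ⟨?_, ?_⟩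
    · rintro (⟨k, hk, rfl⟩ | rfl)
      · exact ⟨k, hk.trans (Nat.lt_succ_self n), rfl⟩
      · exact ⟨n, Nat.lt_succ_self n, rfl⟩
    · rintro ⟨k, hk, rfl⟩
      rcases Nat.lt_or_eq_of_le (Nat.le_of_lt_succ hk) with hk' | rfl
      · exact Or.inl ⟨k, hk', rfl⟩
      · exact Or.inr rfl

/-- The product of codes; the argument is the number of columns of the first factor still to be
added. -/
def mulBAux (N q r : ℕ) : ℕ → ℕ :=
  Nat.rec 0 fun i ih => Nat.xor ih (Nat.mul
    (Nat.land (Nat.shiftRight q (Nat.mul N i)) (Nat.sub (Nat.pow 2 N) 1))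
    (Nat.land (Nat.shiftRight r i) (onesB N N)))

/-- The product of codes. -/
def mulB (N q r : ℕ) : ℕ := mulBAux N q r N

/-- A product of a short number with a number having bits only at the bottoms of blocks. -/
theorem testBit_mul_blocks {N : ℕ} (hN : 0 < N) {c : ℕ} (hc : c < 2 ^ N) :
    ∀ (n m : ℕ), m < 2 ^ (N * n) → (∀ t, m.testBit t = true → N ∣ t) → ∀ t,
      (c * m).testBit t = (c.testBit (t % N) && m.testBit (N * (t / N)))
  | 0, m, hm, _, t => by
    have : m = 0 := by simpa using hm
    simp [this]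
  | n + 1, m, hm, hdiv, t => by
    have hlow : m % 2 ^ N = (m.testBit 0).toNat := by
      refine Nat.eq_of_testBit_eq fun i => ?_
      rw [Nat.testBit_mod_two_pow]
      rcases Nat.eq_zero_or_pos i with rfl | hi
      · cases m.testBit 0 <;> simp [hN]
      · have hnot : (decide (i < N) && m.testBit i) = false := by
          by_contra h
          simp only [Bool.not_eq_false, Bool.and_eq_true, decide_eq_true_eq] at h
          exact absurd (Nat.le_of_dvd hi (hdiv i h.2)) (Nat.not_le.2 h.1)
        rw [hnot]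
        cases m.testBit 0
        · simp
        · show false = Nat.testBit (2 ^ 0) i
          rw [Nat.testBit_two_pow]
          exact (decide_eq_false (by omega)).symm
    have hm' : m / 2 ^ N < 2 ^ (N * n) := by
      rw [Nat.div_lt_iff_lt_mul (by positivity), ← pow_add]
      rwa [Nat.mul_succ] at hm
    have hdiv' : ∀ s, (m / 2 ^ N).testBit s = true → N ∣ s := fun s hs => by
      rw [Nat.testBit_div_two_pow] at hs
      exact (Nat.dvd_add_left dvd_rfl).1 (hdiv _ hs)
    have ih := testBit_mul_blocks hN hc n _ hm' hdiv'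
    have hsplit : c * m = 2 ^ N * (c * (m / 2 ^ N)) + c * (m % 2 ^ N) := by
      conv_lhs => rw [← Nat.div_add_mod m (2 ^ N)]
      ring
    have hlt : c * (m % 2 ^ N) < 2 ^ N := by
      rw [hlow]
      cases m.testBit 0 <;> simp [hc]
    rw [hsplit, Nat.testBit_two_pow_mul_add _ hlt]
    by_cases ht : t < N
    · rw [if_pos ht, Nat.mod_eq_of_lt ht, Nat.div_eq_of_lt ht, Nat.mul_zero, hlow]
      cases m.testBit 0 <;> simp
    · rw [if_neg ht, ih, Nat.testBit_div_two_pow]
      have hle : N ≤ t := Nat.not_lt.1 ht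
      rw [← Nat.mod_eq_sub_mod hle]
      congr 2
      rw [Nat.div_eq t N, if_pos ⟨hN, hle⟩]
      ring

/-- The code of a matrix. -/
def encB (N : ℕ) (A : Matrix (Fin N) (Fin N) (ZMod 2)) : ℕ :=
  bitsN (fun t => if h : t % N < N ∧ t / N < N then decide (A ⟨t % N, h.1⟩ ⟨t / N, h.2⟩ = 1)
    else false) (N * N)

theorem testBit_encB {N : ℕ} (A : Matrix (Fin N) (Fin N) (ZMod 2)) (i j : Fin N) :
    (encB N A).testBit (N * j + i) = decide (A i j = 1) := by
  have hN : 0 < N := Nat.pos_of_ne_zero (fun h => absurd i.2 (by omega))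
  have h1 : (N * j + i : ℕ) % N = i := by
    rw [Nat.mul_add_mod, Nat.mod_eq_of_lt i.2]
  have h2 : (N * j + i : ℕ) / N = j := by
    rw [Nat.mul_add_div hN, Nat.div_eq_of_lt i.2, Nat.add_zero]
  have h3 : (N * j + i : ℕ) < N * N := by
    calc (N * j + i : ℕ) < N * j + N := Nat.add_lt_add_left i.2 _
      _ = N * (j + 1) := by ring
      _ ≤ N * N := Nat.mul_le_mul_left N j.2
  rw [encB, testBit_bitsN]
  simp [h3, h1, h2]

theorem testBit_encB_ge {N : ℕ} (A : Matrix (Fin N) (Fin N) (ZMod 2)) {t : ℕ} (ht : N * N ≤ t) :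
    (encB N A).testBit t = false := by
  rw [encB, testBit_bitsN]
  simp [Nat.not_lt.2 ht]

theorem encB_injective {N : ℕ} : Function.Injective (encB N) := by
  intro A B h
  ext i j
  have e := congrArg (Nat.testBit · (N * j + i)) h
  simp only [testBit_encB, decide_eq_decide] at e
  rcases (show ∀ z : ZMod 2, z = 0 ∨ z = 1 by decide) (A i j) with ha | ha <;>
    rcases (show ∀ z : ZMod 2, z = 0 ∨ z = 1 by decide) (B i j) with hb | hb <;> simp_all

theorem testBit_mulB_term {N : ℕ} (hN : 0 < N) (q r i : ℕ) (t : ℕ) :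
    (((q >>> (N * i)) &&& (2 ^ N - 1)) * ((r >>> i) &&& onesB N N)).testBit t =
      (decide (t < N * N) && (q.testBit (N * i + t % N) && r.testBit (N * (t / N) + i))) := by
  have hc : (q >>> (N * i)) &&& (2 ^ N - 1) < 2 ^ N := by
    rw [Nat.and_two_pow_sub_one_eq_mod]
    exact Nat.mod_lt _ (by positivity)
  have hm : (r >>> i) &&& onesB N N < 2 ^ (N * N) := by
    refine Nat.lt_pow_two_of_testBit _ fun s hs => ?_
    rw [Nat.testBit_and, testBit_onesB]
    simp only [Bool.and_eq_false_iff, decide_eq_false_iff_not]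
    refine Or.inr ?_
    rintro ⟨k, hk, rfl⟩
    exact absurd hs (Nat.not_le.2 ((Nat.mul_lt_mul_left hN).2 hk))
  have hdiv : ∀ s, ((r >>> i) &&& onesB N N).testBit s = true → N ∣ s := fun s hs => by
    rw [Nat.testBit_and, testBit_onesB, Bool.and_eq_true, decide_eq_true_eq] at hs
    obtain ⟨k, -, rfl⟩ := hs.2
    exact dvd_mul_right N k
  rw [testBit_mul_blocks hN hc N _ hm hdiv, Nat.testBit_and, Nat.testBit_and, testBit_onesB,
    Nat.testBit_shiftRight, Nat.testBit_shiftRight, Nat.and_two_pow_sub_one_eq_mod 0 N |> fun _ =>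
      Nat.testBit_two_pow_sub_one]
  have hlt : t % N < N := Nat.mod_lt _ hN
  have hiff : (∃ k < N, N * (t / N) = N * k) ↔ t < N * N := by
    rw [← Nat.div_lt_iff_lt_mul hN]
    exact ⟨fun ⟨k, hk, e⟩ => (Nat.eq_of_mul_eq_mul_left hN e).symm ▸ hk, fun h => ⟨_, h, rfl⟩⟩
  simp only [hlt, decide_true, Bool.and_true, hiff, Nat.add_comm i]
  cases decide (t < N * N) <;> cases q.testBit (N * i + t % N) <;>
    cases r.testBit (N * (t / N) + i) <;> rfl

theorem encB_mul {N : ℕ} (A B : Matrix (Fin N) (Fin N) (ZMod 2)) :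
    encB N (A * B) = mulB N (encB N A) (encB N B) := by
  refine Nat.eq_of_testBit_eq fun t => ?_
  have aux : ∀ k, k ≤ N → (mulBAux N (encB N A) (encB N B) k).testBit t =
      decide (t < N * N ∧
        (∑ i ∈ Finset.range k, if h : i < N ∧ t % N < N ∧ t / N < N then
          A ⟨t % N, h.2.1⟩ ⟨i, h.1⟩ * B ⟨i, h.1⟩ ⟨t / N, h.2.2⟩ else 0) = (1 : ZMod 2)) := by
    intro k
    induction k with
    | zero => intro _; simp [mulBAux]
    | succ k ih =>
      intro hk
      have hN : 0 < N := by omega
      show (mulBAux N (encB N A) (encB N B) k ^^^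
        (((encB N A) >>> (N * k)) &&& (2 ^ N - 1)) *
          (((encB N B) >>> k) &&& onesB N N)).testBit t = _
      rw [Nat.testBit_xor, ih (by omega), testBit_mulB_term hN, Finset.sum_range_succ]
      by_cases ht : t < N * N
      · have h2 : t % N < N := Nat.mod_lt _ hN
        have h3 : t / N < N := (Nat.div_lt_iff_lt_mul hN).2 ht
        rw [show N * k + t % N = N * ((⟨k, hk⟩ : Fin N) : ℕ) + ((⟨t % N, h2⟩ : Fin N) : ℕ) from rfl,
          show N * (t / N) + k = N * ((⟨t / N, h3⟩ : Fin N) : ℕ) + ((⟨k, hk⟩ : Fin N) : ℕ) from rfl,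
          testBit_encB, testBit_encB]
        simp only [ht, true_and, decide_true, Bool.true_and]
        rw [dif_pos (⟨hk, h2, h3⟩ : k < N ∧ t % N < N ∧ t / N < N)]
        exact (show ∀ z a b : ZMod 2,
          (decide (z = 1) ^^ (decide (a = 1) && decide (b = 1))) = decide (z + a * b = 1) by decide) _ _ _
      · simp [ht]
  rw [mulB, aux N le_rfl]
  by_cases ht : t < N * N
  · have hN : 0 < N := Nat.pos_of_ne_zero (by rintro rfl; simp at ht)
    have h2 : t % N < N := Nat.mod_lt _ hN
    have h3 : t / N < N := (Nat.div_lt_iff_lt_mul hN).2 ht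
    conv_lhs => rw [show t = N * ((⟨t / N, h3⟩ : Fin N) : ℕ) + ((⟨t % N, h2⟩ : Fin N) : ℕ) from
      (Nat.div_add_mod t N).symm]
    rw [testBit_encB, Matrix.mul_apply, ← Fin.sum_univ_eq_sum_range]
    simp [ht, h2, h3]
  · rw [testBit_encB_ge _ (Nat.not_lt.1 ht)]
    simp [ht]

/-- The code of the identity. -/
def oneB (N : ℕ) : ℕ := bitsN (fun t => Nat.beq (t % N) (t / N)) (N * N)

theorem encB_one (N : ℕ) : encB N 1 = oneB N := by
  refine Nat.eq_of_testBit_eq fun t => ?_
  rw [encB, oneB, testBit_bitsN, testBit_bitsN]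
  by_cases ht : t < N * N
  · have hN : 0 < N := Nat.pos_of_ne_zero (by rintro rfl; simp at ht)
    have h2 : t % N < N := Nat.mod_lt _ hN
    have h3 : t / N < N := (Nat.div_lt_iff_lt_mul hN).2 ht
    simp only [ht, h2, h3, decide_true, Bool.true_and, and_self, dite_true, Matrix.one_apply,
      Fin.mk.injEq]
    rcases eq_or_ne (t % N) (t / N) with e | e
    · simp [e]
    · rw [if_neg e, decide_eq_false (by decide : ¬ (0 : ZMod 2) = 1)]
      exact (Bool.eq_false_iff.2 fun h => e (Nat.eq_of_beq_eq_true h)).symm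
  · simp [ht]

/-- The code of a group embedded in matrices over two elements. -/
def bitCode {G : Type*} [Group G] {N : ℕ} (f : G →* Matrix (Fin N) (Fin N) (ZMod 2))
    (hf : Function.Injective f) : Code G where
  mul := mulB N
  one := oneB N
  enc := fun g => encB N (f g)
  enc_one := by rw [map_one, encB_one]
  enc_mul := fun a b => by rw [map_mul, encB_mul]
  enc_inj := fun _ _ h => hf (encB_injective h)

end Cfsg.Agent.SchurBound
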