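import Cfsg.Agent.SchurBound.CoresCert
import Mathlib.Logic.Equiv.Fin.Basic

set_option autoImplicit false
set_option maxHeartbeats 400000

/-!
A certificate for a lower bound of a Schur multiplier by corestriction from a subgroup that is a
product of an abelian normal part `V` and a complement `H`, with the cocycle of a derivation of
`H` into the linear forms on `V`.
-/

namespace Cfsg.Agent.SchurBound

open Cfsg.Agent.SchurCert
open scoped commutatorElement

universe v

/-- The data. Tables are packed with `getP`. -/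
structure SCert where
  /-- The number of cosets. -/
  m : ℕ
  /-- The order of the normal part. -/
  nV : ℕ
  /-- The order of the complement. -/
  nH : ℕ
  /-- The modulus. -/
  n : ℕ
  /-- The width of a code. -/
  wc : ℕ
  /-- The codes of generators of the group. -/
  gens : List ℕ
  /-- The codes of generators of the normal part. -/
  vgens : List ℕ
  /-- The codes of generators of the complement. -/
  hgens : List ℕ
  /-- The codes of the representatives. -/
  T : List ℕ
  /-- The parents of the representatives. -/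
  tpar : List ℕ
  /-- The generators leading from the parents. -/
  tgen : List ℕ
  /-- The ranks by keys. -/
  rank : List ℕ
  /-- The representatives sorted by keys. -/
  srt : List ℕ
  /-- The codes of the normal part. -/
  V : List ℕ
  /-- The parents in the normal part. -/
  vpar : List ℕ
  /-- The generators leading from the parents. -/
  vgen : List ℕ
  /-- The rows of the table of the normal part. -/
  vm : List ℕ
  /-- The codes of the complement. -/
  H : List ℕ
  /-- The parents in the complement. -/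
  hpar : List ℕ
  /-- The generators leading from the parents. -/
  hgen : List ℕ
  /-- Right multiplication by the generators. -/
  hmg : List ℕ
  /-- The ranks of the complement by codes. -/
  rankH : List ℕ
  /-- The complement sorted by codes. -/
  srtH : List ℕ
  /-- The action of the generators on the normal part. -/
  act : List ℕ
  /-- The rows of the derivation. -/
  xi : List ℕ

/-- The tables of the action of an element on the cosets. -/
structure STab where
  /-- The normal part of the element. -/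
  xv : ℕ
  /-- The complement part of the element. -/
  xh : ℕ
  /-- The cosets reached. -/
  p : List ℕ
  /-- The normal parts. -/
  uv : List ℕ
  /-- The complement parts. -/
  uh : List ℕ

namespace SCert

variable (D : SCert) (mul : ℕ → ℕ → ℕ) (one : ℕ) (key : ℕ → ℕ)

/-- The code of a representative. -/
def Tc (i : ℕ) : ℕ := getP D.wc D.T i

/-- The code of an element of the normal part. -/
def Vc (i : ℕ) : ℕ := getP D.wc D.V i

/-- The code of an element of the complement. -/
def Hc (a : ℕ) : ℕ := getP D.wc D.H a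

/-- The product in the normal part. -/
def vmv (i j : ℕ) : ℕ := getN 8 (getP (8 * D.nV) D.vm i) j

/-- Right multiplication in the complement. -/
def hmv (a g : ℕ) : ℕ := getP 16 D.hmg (Nat.add (Nat.mul a D.hgens.length) g)

/-- The action of a generator. -/
def actv (g i : ℕ) : ℕ := getN 8 (D.act.getD g 0) i

/-- The derivation. -/
def xv (a i : ℕ) : ℕ := getN 2 (getP (2 * D.nV) D.xi a) i

/-- The representatives are products of generators. -/
def repsOK : Bool :=
  allN (fun i =>
    bif Nat.beq i 0 then Nat.beq (D.Tc 0) one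
    else
      let pa := getP 16 D.tpar i
      let g := getP 8 D.tgen i
      Nat.blt pa i && Nat.blt g D.gens.length &&
        Nat.beq (D.Tc i) (mul (D.gens.getD g one) (D.Tc pa))) D.m

/-- The keys of the sorted representatives increase. -/
def keysOK : Bool :=
  allN (fun i => Nat.blt (getP 16 D.rank i) D.m && Nat.beq (getP 16 D.srt (getP 16 D.rank i)) i) D.m &&
  allN (fun j =>
    Nat.blt (key (D.Tc (getP 16 D.srt j))) (key (D.Tc (getP 16 D.srt (j + 1))))) (D.m - 1)

/-- The normal part and its table. -/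
def vOK : Bool :=
  Nat.blt 0 D.nV && Nat.beq (D.Vc 0) one &&
  allN (fun k => Nat.beq k 0 ||
    (let pa := getP 8 D.vpar k
     let g := getP 8 D.vgen k
     Nat.blt pa k && Nat.blt g D.vgens.length &&
       Nat.beq (D.Vc k) (mul (D.Vc pa) (D.vgens.getD g one)))) D.nV &&
  allN (fun i => allN (fun j => Nat.blt (D.vmv i j) D.nV &&
    Nat.beq (mul (D.Vc i) (D.Vc j)) (D.Vc (D.vmv i j))) D.nV) D.nV &&
  allN (fun i => allN (fun j => !(Nat.beq (D.Vc i) (D.Vc j))) i) D.nV

/-- The complement and right multiplication. -/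
def hOK : Bool :=
  Nat.blt 0 D.nH && Nat.beq (D.Hc 0) one &&
  allN (fun a => allN (fun g => Nat.blt (D.hmv a g) D.nH &&
    Nat.beq (mul (D.Hc a) (D.hgens.getD g one)) (D.Hc (D.hmv a g))) D.hgens.length) D.nH &&
  allN (fun a => Nat.beq a 0 ||
    (let pa := getP 16 D.hpar a
     let g := getP 8 D.hgen a
     Nat.blt pa a && Nat.blt g D.hgens.length && Nat.beq a (D.hmv pa g))) D.nH &&
  allN (fun a => Nat.blt (getP 16 D.rankH a) D.nH && Nat.beq (getP 16 D.srtH (getP 16 D.rankH a)) a)
    D.nH &&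
  allN (fun j => Nat.blt (D.Hc (getP 16 D.srtH j)) (D.Hc (getP 16 D.srtH (j + 1)))) (D.nH - 1) &&
  allN (fun a => Nat.beq a 0 || allN (fun i => !(Nat.beq (D.Hc a) (D.Vc i))) D.nV) D.nH

/-- The action. -/
def actOK : Bool :=
  allN (fun g => allN (fun i => Nat.blt (D.actv g i) D.nV &&
    Nat.beq (mul (D.hgens.getD g one) (D.Vc i)) (mul (D.Vc (D.actv g i)) (D.hgens.getD g one)))
      D.nV) D.hgens.length

/-- The derivation against the generators. -/
def xiOK : Bool :=
  allN (fun i => Nat.beq (Nat.mod (D.xv 0 i) D.n) 0) D.nV &&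
  allN (fun g => allN (fun i => allN (fun j =>
    Nat.beq (Nat.mod (D.xv (D.hmv 0 g) (D.vmv i j)) D.n)
      (Nat.mod (Nat.add (D.xv (D.hmv 0 g) i) (D.xv (D.hmv 0 g) j)) D.n)) D.nV) D.nV) D.hgens.length &&
  allN (fun a => allN (fun g => allN (fun i =>
    Nat.beq (Nat.mod (D.xv (D.hmv a g) i) D.n)
      (Nat.mod (Nat.add (D.xv a (D.actv g i)) (D.xv (D.hmv 0 g) i)) D.n)) D.nV) D.hgens.length) D.nH

/-- The generators of the subgroup fix the key. -/
def fixOK : Bool :=
  (D.vgens ++ D.hgens).all fun c => Nat.beq (key c) (key one)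

/-- The code of an element of the subgroup. -/
def Uc (i a : ℕ) : ℕ := mul (D.Vc i) (D.Hc a)

/-- A table of the action is correct. -/
def tabOK (X : STab) : Bool :=
  Nat.blt X.xv D.nV && Nat.blt X.xh D.nH &&
  (let x := D.Uc mul X.xv X.xh
   allN (fun i =>
    Nat.blt (getP 16 X.p i) D.m && Nat.blt (getP 8 X.uv i) D.nV && Nat.blt (getP 16 X.uh i) D.nH &&
      Nat.beq (mul x (D.Tc i))
        (mul (D.Tc (getP 16 X.p i)) (D.Uc mul (getP 8 X.uv i) (getP 16 X.uh i)))) D.m)

/-- The sum over the cosets. -/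
def coresSum (X Y : STab) : ℕ :=
  sumN (fun i => D.xv (getP 16 X.uh (getP 16 Y.p i)) (getP 8 Y.uv i)) D.m

/-- The two elements commute and give the value one. -/
def valOK (X Y : STab) : Bool :=
  Nat.beq (mul (D.Uc mul X.xv X.xh) (D.Uc mul Y.xv Y.xh))
    (mul (D.Uc mul Y.xv Y.xh) (D.Uc mul X.xv X.xh)) &&
    Nat.beq (Nat.mod (D.coresSum X Y) D.n) (Nat.mod (D.coresSum Y X + 1) D.n)

/-- All the checks. -/
structure Checked (X Y : STab) : Prop where
  reps : D.repsOK mul one = true
  keys : D.keysOK key = true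
  vpart : D.vOK mul one = true
  hpart : D.hOK mul one = true
  action : D.actOK mul one = true
  deriv : D.xiOK = true
  fix : D.fixOK one key = true
  tabx : D.tabOK mul X = true
  taby : D.tabOK mul Y = true
  value : D.valOK mul X Y = true

end SCert

theorem strictMono_of_step {f : ℕ → ℕ} {n : ℕ} (h : ∀ j < n - 1, f j < f (j + 1)) :
    ∀ j' < n, ∀ j < j', f j < f j' := by
  intro j'
  induction j' with
  | zero => intro _ j hj; omega
  | succ j' ih =>
    intro hj' j hj
    have hs := h j' (by omega)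
    rcases Nat.lt_or_eq_of_le (Nat.le_of_lt_succ hj) with h' | rfl
    · exact (ih (by omega) j h').trans hs
    · exact hs

theorem sorted_inj {f : ℕ → ℕ} {rank srt : ℕ → ℕ} {n : ℕ}
    (hr : ∀ i < n, rank i < n ∧ srt (rank i) = i)
    (hs : ∀ j < n - 1, f (srt j) < f (srt (j + 1))) {i j : ℕ} (hi : i < n) (hj : j < n)
    (h : f i = f j) : i = j := by
  obtain ⟨hi1, hi2⟩ := hr i hi
  obtain ⟨hj1, hj2⟩ := hr j hj
  rw [← hi2, ← hj2] at h
  rcases lt_trichotomy (rank i) (rank j) with hlt | he | hlt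
  · exact absurd h (strictMono_of_step (f := fun k => f (srt k)) hs _ hj1 _ hlt).ne
  · rw [← hi2, he, hj2]
  · exact absurd h (strictMono_of_step (f := fun k => f (srt k)) hs _ hi1 _ hlt).ne'

theorem natBeq_false_ne {a b : ℕ} (h : (!(Nat.beq a b)) = true) : a ≠ b := by
  rintro rfl
  rw [Nat.beq_refl] at h
  exact Bool.noConfusion h

theorem cast_of_beq_mod {n a b : ℕ} (h : Nat.beq (Nat.mod a n) (Nat.mod b n) = true) :
    (a : ZMod n) = b := by
  rw [← ZMod.natCast_mod a, ← ZMod.natCast_mod b]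
  exact congrArg Nat.cast (Nat.eq_of_beq_eq_true h)

/-- A checked certificate gives a stem extension with cyclic kernel of order `n`. -/
theorem exists_stem_of_scert {G : Type v} [Group G] [Finite G] (C : Code G)
    (hperf : commutator G = ⊤) (D : SCert) [NeZero D.n] (key : ℕ → ℕ)
    (hkey : ∀ g u : G, key (C.enc u) = key C.one → key (C.enc (g * u)) = key (C.enc g))
    (hgens : ∀ c ∈ D.gens ++ D.vgens ++ D.hgens, ∃ g : G, C.enc g = c)
    (hcard : Nat.card G = D.m * (D.nV * D.nH)) (X Y : STab)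
    (hcheck : D.Checked C.mul C.one key X Y) :
    ∃ (W : Type v) (_ : Group W) (_ : Finite W) (σ : W →* G),
      Cfsg.IsStemExtension σ ∧ Nonempty (σ.ker ≃* Multiplicative (ZMod D.n)) := by
  obtain ⟨hreps, hkeys, hv, hh, hact, hxi, hfix, htx, hty, hval⟩ := hcheck
  simp only [SCert.keysOK, Bool.and_eq_true] at hkeys
  obtain ⟨hrank, hsrt⟩ := hkeys
  simp only [SCert.vOK, Bool.and_eq_true, Nat.blt_eq] at hv
  obtain ⟨⟨⟨⟨hnV, hV0⟩, hvpar⟩, hvm⟩, hVnd⟩ := hv
  simp only [SCert.hOK, Bool.and_eq_true, Nat.blt_eq] at hh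
  obtain ⟨⟨⟨⟨⟨⟨hnH, hH0⟩, hhm⟩, hhpar⟩, hrankH⟩, hsrtH⟩, hVH⟩ := hh
  simp only [SCert.xiOK, Bool.and_eq_true] at hxi
  obtain ⟨⟨hx0, hxlin⟩, hxder⟩ := hxi
  -- elements with the listed codes
  have hgG : ∀ g < D.gens.length, ∃ x : G, C.enc x = D.gens.getD g C.one := fun g hg =>
    hgens _ (by rw [List.getD_eq_getElem _ _ hg]; simp)
  have hgV : ∀ g < D.vgens.length, ∃ x : G, C.enc x = D.vgens.getD g C.one := fun g hg =>
    hgens _ (by rw [List.getD_eq_getElem _ _ hg]; simp)
  have hgH : ∀ g < D.hgens.length, ∃ x : G, C.enc x = D.hgens.getD g C.one := fun g hg =>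
    hgens _ (by rw [List.getD_eq_getElem _ _ hg]; simp)
  choose hG henc using fun g : Fin D.hgens.length => hgH g g.2
  have hT : ∀ i < D.m, ∃ g : G, C.enc g = D.Tc i := by
    intro i
    induction i using Nat.strong_induction_on with
    | _ i ih =>
      intro hi
      have h := allN_iff hreps i hi
      rcases Nat.eq_zero_or_pos i with rfl | hpos
      · simp only [Nat.beq_refl, cond_true] at h
        exact ⟨1, C.enc_one.trans (Nat.eq_of_beq_eq_true h).symm⟩
      · have e0 : Nat.beq i 0 = false := by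
          cases hb : Nat.beq i 0
          · rfl
          · exact absurd (Nat.eq_of_beq_eq_true hb) (by omega)
        simp only [e0, cond_false, Bool.and_eq_true, Nat.blt_eq] at h
        obtain ⟨⟨h1, h2⟩, h3⟩ := h
        obtain ⟨g, hg⟩ := ih _ h1 (h1.trans hi)
        obtain ⟨g', hg'⟩ := hgG _ h2
        exact ⟨g' * g, by rw [C.enc_mul, hg, hg', Nat.eq_of_beq_eq_true h3]⟩
  -- elements fixing the key
  have hfix' : ∀ c ∈ D.vgens ++ D.hgens, key c = key C.one := fun c hc =>
    Nat.eq_of_beq_eq_true (List.all_eq_true.1 hfix c hc)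
  have hfixmul : ∀ u w : G, key (C.enc u) = key C.one → key (C.enc w) = key C.one →
      key (C.enc (u * w)) = key C.one := fun u w hu hw => (hkey u w hw).trans hu
  have hV : ∀ k < D.nV, ∃ g : G, C.enc g = D.Vc k ∧ key (C.enc g) = key C.one := by
    intro k
    induction k using Nat.strong_induction_on with
    | _ k ih =>
      intro hk
      have h := allN_iff hvpar k hk
      simp only [Bool.or_eq_true, Bool.and_eq_true, Nat.blt_eq] at h
      rcases h with h0 | ⟨⟨h1, h2⟩, h3⟩
      · refine ⟨1, ?_, by rw [C.enc_one]⟩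
        rw [Nat.eq_of_beq_eq_true h0, C.enc_one, Nat.eq_of_beq_eq_true hV0]
      · obtain ⟨g, hg, hgk⟩ := ih _ h1 (h1.trans hk)
        obtain ⟨g', hg'⟩ := hgV _ h2
        refine ⟨g * g', by rw [C.enc_mul, hg, hg', Nat.eq_of_beq_eq_true h3], hfixmul _ _ hgk ?_⟩
        rw [hg']
        exact hfix' _ (by rw [List.getD_eq_getElem _ _ h2]; simp)
  have hhmv : ∀ a < D.nH, ∀ g < D.hgens.length, D.hmv a g < D.nH ∧
      C.mul (D.Hc a) (D.hgens.getD g C.one) = D.Hc (D.hmv a g) := fun a ha g hg => by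
    have h := allN_iff (allN_iff hhm a ha) g hg
    simp only [Bool.and_eq_true, Nat.blt_eq] at h
    exact ⟨h.1, Nat.eq_of_beq_eq_true h.2⟩
  have hhparv : ∀ a < D.nH, a = 0 ∨ ((getP 16 D.hpar a) < a ∧ getP 8 D.hgen a < D.hgens.length) ∧
      a = D.hmv (getP 16 D.hpar a) (getP 8 D.hgen a) := fun a ha => by
    have h := allN_iff hhpar a ha
    simp only [Bool.or_eq_true, Bool.and_eq_true, Nat.blt_eq] at h
    rcases h with h0 | ⟨h1, h2⟩
    · exact Or.inl (Nat.eq_of_beq_eq_true h0)
    · exact Or.inr ⟨h1, Nat.eq_of_beq_eq_true h2⟩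
  have hH : ∀ a < D.nH, ∃ g : G, C.enc g = D.Hc a ∧ key (C.enc g) = key C.one := by
    intro a
    induction a using Nat.strong_induction_on with
    | _ a ih =>
      intro ha
      rcases hhparv a ha with rfl | ⟨⟨h1, h2⟩, h3⟩
      · exact ⟨1, by rw [C.enc_one, Nat.eq_of_beq_eq_true hH0], by rw [C.enc_one]⟩
      · obtain ⟨g, hg, hgk⟩ := ih _ h1 (h1.trans ha)
        refine ⟨g * hG ⟨_, h2⟩, ?_, hfixmul _ _ hgk ?_⟩
        · rw [C.enc_mul, hg, henc]
          exact ((hhmv _ (h1.trans ha) _ h2).2).trans (by rw [← h3])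
        · rw [henc]
          exact hfix' _ (by rw [List.getD_eq_getElem _ _ h2]; simp)
  choose Tf hTf using fun i : Fin D.m => hT i i.2
  choose Vf hVf hVk using fun k : Fin D.nV => hV k k.2
  choose Hf hHf hHk using fun a : Fin D.nH => hH a a.2
  have hTinj : ∀ i j : Fin D.m, key (D.Tc i) = key (D.Tc j) → i = j := fun i j h => Fin.ext <|
    sorted_inj (f := fun k => key (D.Tc k)) (rank := fun k => getP 16 D.rank k)
      (srt := fun k => getP 16 D.srt k)
      (fun k hk => by
        have h := allN_iff hrank k hk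
        simp only [Bool.and_eq_true, Nat.blt_eq] at h
        exact ⟨h.1, Nat.eq_of_beq_eq_true h.2⟩)
      (fun k hk => by simpa using allN_iff hsrt k hk) i.2 j.2 h
  have hHinj : ∀ a b : Fin D.nH, D.Hc a = D.Hc b → a = b := fun a b h => Fin.ext <|
    sorted_inj (f := fun k => D.Hc k) (rank := fun k => getP 16 D.rankH k)
      (srt := fun k => getP 16 D.srtH k)
      (fun k hk => by
        have h := allN_iff hrankH k hk
        simp only [Bool.and_eq_true, Nat.blt_eq] at h
        exact ⟨h.1, Nat.eq_of_beq_eq_true h.2⟩)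
      (fun k hk => by simpa using allN_iff hsrtH k hk) a.2 b.2 h
  have hVinj : ∀ i j : Fin D.nV, D.Vc i = D.Vc j → i = j := by
    intro i j h
    rcases lt_trichotomy (i : ℕ) j with hlt | he | hlt
    · exact absurd h.symm (natBeq_false_ne (allN_iff (allN_iff hVnd j j.2) i hlt))
    · exact Fin.ext he
    · exact absurd h (natBeq_false_ne (allN_iff (allN_iff hVnd i i.2) j hlt))
  have hVeq : ∀ i j : Fin D.nV, Vf i = Vf j → i = j := fun i j h =>
    hVinj i j (by rw [← hVf, ← hVf, h])
  have hHeq : ∀ a b : Fin D.nH, Hf a = Hf b → a = b := fun a b h =>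
    hHinj a b (by rw [← hHf, ← hHf, h])
  let e0 : Fin D.nV := ⟨0, hnV⟩
  let h0 : Fin D.nH := ⟨0, hnH⟩
  have hVe : Vf e0 = 1 := C.enc_inj (by
    rw [hVf, C.enc_one]; exact Nat.eq_of_beq_eq_true hV0)
  have hHe : Hf h0 = 1 := C.enc_inj (by
    rw [hHf, C.enc_one]; exact Nat.eq_of_beq_eq_true hH0)
  have hvm' : ∀ i < D.nV, ∀ j < D.nV, D.vmv i j < D.nV ∧
      C.mul (D.Vc i) (D.Vc j) = D.Vc (D.vmv i j) := fun i hi j hj => by
    have h := allN_iff (allN_iff hvm i hi) j hj
    simp only [Bool.and_eq_true, Nat.blt_eq] at h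
    exact ⟨h.1, Nat.eq_of_beq_eq_true h.2⟩
  let vm : Fin D.nV → Fin D.nV → Fin D.nV := fun i j => ⟨D.vmv i j, (hvm' i i.2 j j.2).1⟩
  have hVmul : ∀ i j, Vf i * Vf j = Vf (vm i j) := fun i j => C.enc_inj (by
    rw [C.enc_mul, hVf, hVf, hVf]; exact (hvm' i i.2 j j.2).2)
  -- generators of the complement
  have hactv : ∀ g < D.hgens.length, ∀ i < D.nV, D.actv g i < D.nV ∧
      C.mul (D.hgens.getD g C.one) (D.Vc i) = C.mul (D.Vc (D.actv g i)) (D.hgens.getD g C.one) :=
    fun g hg i hi => by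
      have h := allN_iff (allN_iff hact g hg) i hi
      simp only [Bool.and_eq_true, Nat.blt_eq] at h
      exact ⟨h.1, Nat.eq_of_beq_eq_true h.2⟩
  let hmg : Fin D.nH → Fin D.hgens.length → Fin D.nH := fun a g =>
    ⟨D.hmv a g, (hhmv a a.2 g g.2).1⟩
  have hHmg : ∀ a g, Hf a * hG g = Hf (hmg a g) := fun a g => C.enc_inj (by
    rw [C.enc_mul, hHf, henc, hHf]; exact (hhmv a a.2 g g.2).2)
  let acg : Fin D.hgens.length → Fin D.nV → Fin D.nV := fun g i =>
    ⟨D.actv g i, (hactv g g.2 i i.2).1⟩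
  have hGact : ∀ g i, hG g * Vf i = Vf (acg g i) * hG g := fun g i => C.enc_inj (by
    rw [C.enc_mul, C.enc_mul, hVf, hVf, henc]; exact (hactv g g.2 i i.2).2)
  have hgen0 : ∀ g, hG g = Hf (hmg h0 g) := fun g => by rw [← hHmg, hHe, one_mul]
  -- induction along the parents
  have hind : ∀ P : Fin D.nH → Prop, P h0 → (∀ c g, P c → P (hmg c g)) → ∀ a, P a := by
    intro P hP0 hstep
    suffices H : ∀ k, ∀ a : Fin D.nH, (a : ℕ) = k → P a from fun a => H a a rfl
    intro k
    induction k using Nat.strong_induction_on with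
    | _ k ih =>
      intro a ha
      subst ha
      rcases hhparv a a.2 with ha0 | ⟨⟨h1, h2⟩, h3⟩
      · rwa [show a = h0 from Fin.ext ha0]
      · have := hstep ⟨_, h1.trans a.2⟩ ⟨_, h2⟩ (ih _ h1 _ rfl)
        rwa [show a = hmg ⟨_, h1.trans a.2⟩ ⟨_, h2⟩ from Fin.ext h3]
  have hmex : ∀ b a, ∃ c, Hf a * Hf b = Hf c := hind _ (fun a => ⟨a, by rw [hHe, mul_one]⟩)
    (fun c g hc a => by
      obtain ⟨d, hd⟩ := hc a
      exact ⟨hmg d g, by rw [← hHmg, ← mul_assoc, hd, hHmg]⟩)
  have hacex : ∀ a i, ∃ j, Hf a * Vf i = Vf j * Hf a := hind _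
    (fun i => ⟨i, by rw [hHe, one_mul, mul_one]⟩)
    (fun c g hc i => by
      obtain ⟨j, hj⟩ := hc (acg g i)
      exact ⟨j, by rw [← hHmg, mul_assoc, hGact, ← mul_assoc, hj, mul_assoc]⟩)
  choose hm hHmul using fun a b => hmex b a
  choose ac hact' using hacex
  -- the derivation
  let xi : Fin D.nH → Fin D.nV → ZMod D.n := fun a i => (D.xv a i : ZMod D.n)
  have hxi0 : ∀ i, xi h0 i = 0 := fun i => by
    show ((D.xv 0 i : ℕ) : ZMod D.n) = 0
    rw [← ZMod.natCast_mod, show D.xv 0 i % D.n = 0 from Nat.eq_of_beq_eq_true (allN_iff hx0 i i.2),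
      Nat.cast_zero]
  have hxiG : ∀ (g : Fin D.hgens.length) (i j : Fin D.nV),
      xi (hmg h0 g) (vm i j) = xi (hmg h0 g) i + xi (hmg h0 g) j := fun g i j => by
    have h := cast_of_beq_mod (allN_iff (allN_iff (allN_iff hxlin g g.2) i i.2) j j.2)
    simp only [xi, ← Nat.cast_add]
    exact h
  have hxistep : ∀ a g i, xi (hmg a g) i = xi a (acg g i) + xi (hmg h0 g) i := fun a g i => by
    have h := cast_of_beq_mod (allN_iff (allN_iff (allN_iff hxder a a.2) g g.2) i i.2)
    simp only [xi, ← Nat.cast_add]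
    exact h
  have hassocH : ∀ a c g, hm a (hmg c g) = hmg (hm a c) g := fun a c g => hHeq _ _ (by
    rw [← hHmul, ← hHmg, ← mul_assoc, hHmul, hHmg])
  have hacstep : ∀ c g i, ac (hmg c g) i = ac c (acg g i) := fun c g i => hVeq _ _ (by
    have h1 := hact' (hmg c g) i
    rw [← hHmg, mul_assoc, hGact, ← mul_assoc, hact', mul_assoc] at h1
    exact (mul_right_cancel h1).symm)
  have hder : ∀ b a i, xi (hm a b) i = xi a (ac b i) + xi b i := hind _
    (fun a i => by
      rw [hxi0, add_zero, show hm a h0 = a from hHeq _ _ (by rw [← hHmul, hHe, mul_one]),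
        show ac h0 i = i from hVeq _ _ (by
          have := hact' h0 i
          rw [hHe, one_mul, mul_one] at this
          exact this.symm)])
    (fun c g hc a i => by
      rw [hassocH, hxistep, hc, hacstep, hxistep c]
      ring)
  have hacadd : ∀ g i j, acg g (vm i j) = vm (acg g i) (acg g j) := fun g i j => hVeq _ _ (by
    have h1 := hGact g (vm i j)
    rw [← hVmul, ← mul_assoc, hGact, mul_assoc, hGact, ← mul_assoc, hVmul] at h1
    exact (mul_right_cancel h1).symm)
  have hadd : ∀ a i j, xi a (vm i j) = xi a i + xi a j := hind _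
    (fun i j => by rw [hxi0, hxi0, hxi0, add_zero])
    (fun c g hc i j => by
      rw [hxistep c g (vm i j), hxistep c g i, hxistep c g j, hacadd, hc, hxiG]
      ring)
  -- the subgroup
  let eqv : Fin D.nV × Fin D.nH ≃ Fin (D.nV * D.nH) := finProdFinEquiv
  let Uf : Fin (D.nV * D.nH) → G := fun k => Vf (eqv.symm k).1 * Hf (eqv.symm k).2
  let mt : Fin (D.nV * D.nH) → Fin (D.nV * D.nH) → Fin (D.nV * D.nH) := fun k l =>
    eqv (vm (eqv.symm k).1 (ac (eqv.symm k).2 (eqv.symm l).1), hm (eqv.symm k).2 (eqv.symm l).2)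
  have hUmul : ∀ k l, Uf k * Uf l = Uf (mt k l) := fun k l => by
    simp only [Uf, mt, Equiv.symm_apply_apply]
    rw [← hVmul, ← hHmul, mul_assoc, ← mul_assoc (Hf _) (Vf _), hact']
    simp only [mul_assoc]
  have hUk : ∀ k, key (C.enc (Uf k)) = key C.one := fun k => hfixmul _ _ (hVk _) (hHk _)
  have hUinj' : ∀ (i j : Fin D.nV) (a b : Fin D.nH), Vf i * Hf a = Vf j * Hf b → i = j ∧ a = b := by
    intro i j a b h
    -- an inverse in each part
    have hfinV : ∃ i', Vf i' * Vf j = 1 := by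
      have hinj : Function.Injective fun i' => vm i' j := fun x y hxy => hVeq _ _ (by
        have := congrArg Vf hxy
        rw [← hVmul, ← hVmul] at this
        exact mul_right_cancel this)
      obtain ⟨i', hi'⟩ := (Finite.injective_iff_surjective.1 hinj) e0
      exact ⟨i', by rw [hVmul, show vm i' j = e0 from hi', hVe]⟩
    have hfinH : ∃ a', Hf a * Hf a' = 1 := by
      have hinj : Function.Injective fun a' => hm a a' := fun x y hxy => hHeq _ _ (by
        have := congrArg Hf hxy
        rw [← hHmul, ← hHmul] at this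
        exact mul_left_cancel this)
      obtain ⟨a', ha'⟩ := (Finite.injective_iff_surjective.1 hinj) h0
      exact ⟨a', by rw [hHmul, show hm a a' = h0 from ha', hHe]⟩
    obtain ⟨i', hi'⟩ := hfinV
    obtain ⟨a', ha'⟩ := hfinH
    have hmix : Vf (vm i' i) = Hf (hm b a') := by
      rw [← hVmul, ← hHmul]
      calc Vf i' * Vf i = Vf i' * (Vf i * Hf a) * Hf a' := by
            rw [mul_assoc, mul_assoc, ha', mul_one]
        _ = Hf b * Hf a' := by rw [h, ← mul_assoc, hi', one_mul]
    have hb : hm b a' = h0 := by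
      by_contra hne
      have hc := allN_iff hVH _ (hm b a').2
      simp only [Bool.or_eq_true] at hc
      rcases hc with hc | hc
      · exact hne (Fin.ext (Nat.eq_of_beq_eq_true hc))
      · refine natBeq_false_ne (allN_iff hc _ (vm i' i).2) ?_
        rw [← hHf, ← hVf, hmix]
    have hab : a = b := hHeq _ _ (by
      have e := congrArg Hf hb
      rw [← hHmul, hHe] at e
      exact mul_right_cancel (ha'.trans e.symm))
    refine ⟨hVeq _ _ ?_, hab⟩
    rw [hab] at h
    exact mul_right_cancel h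
  have hUinj : ∀ k l, Uf k = Uf l → k = l := fun k l h => by
    obtain ⟨h1, h2⟩ := hUinj' _ _ _ _ h
    exact eqv.symm.injective (Prod.ext h1 h2)
  have hinj : Function.Injective fun q : Fin D.m × Fin (D.nV * D.nH) => Tf q.1 * Uf q.2 := by
    rintro ⟨i, k⟩ ⟨j, l⟩ h
    have hk := congrArg (fun g => key (C.enc g)) h
    simp only [hkey _ _ (hUk k), hkey _ _ (hUk l), hTf] at hk
    obtain rfl := hTinj i j hk
    obtain rfl := hUinj k l (mul_left_cancel h)
    rfl
  have hbij : Function.Bijective fun q : Fin D.m × Fin (D.nV * D.nH) => Tf q.1 * Uf q.2 :=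
    (Nat.bijective_iff_injective_and_card _).2 ⟨hinj, by
      rw [Nat.card_prod, Nat.card_fin, Nat.card_fin, hcard]⟩
  let e : Fin (D.nV * D.nH) := eqv (e0, h0)
  have hUe : Uf e = 1 := by
    simp only [Uf, e, Equiv.symm_apply_apply, hVe, hHe, mul_one]
  let K : Cosets G D.m (D.nV * D.nH) :=
    { T := Tf, U := Uf, mt := mt, e := e, U_e := hUe, U_mul := hUmul, bij := hbij }
  let f : Fin (D.nV * D.nH) → Fin (D.nV * D.nH) → ZMod D.n := fun k l =>
    xi (eqv.symm k).2 (eqv.symm l).1
  have hf : ∀ a b d, f a b + f (K.mt a b) d = f a (K.mt b d) + f b d := fun a b d => by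
    simp only [f, K, mt, Equiv.symm_apply_apply, hder, hadd]
    ring
  have hf0 : ∀ k, f e k = 0 := fun k => by simp only [f, e, Equiv.symm_apply_apply, hxi0]
  have hxie : ∀ a, xi a e0 = 0 := fun a => by
    have h := hadd a e0 e0
    rw [show vm e0 e0 = e0 from hVeq _ _ (by rw [← hVmul, hVe, mul_one])] at h
    exact left_eq_add.1 h
  have hf0' : ∀ k, f k e = 0 := fun k => by simp only [f, e, Equiv.symm_apply_apply, hxie]
  let F := K.cores f hf hf0 hf0'
  -- the tables
  have hel : ∀ X : STab, D.tabOK C.mul X = true → ∃ Z : Fin (D.nV * D.nH),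
      C.enc (Uf Z) = D.Uc C.mul X.xv X.xh ∧ ∀ i : Fin D.m,
        ((K.act (Uf Z) i : Fin D.m) : ℕ) = getP 16 X.p i ∧
          ((eqv.symm (K.sub (Uf Z) i)).1 : ℕ) = getP 8 X.uv i ∧
            ((eqv.symm (K.sub (Uf Z) i)).2 : ℕ) = getP 16 X.uh i := by
    intro X hX
    simp only [SCert.tabOK, Bool.and_eq_true, Nat.blt_eq] at hX
    obtain ⟨⟨hxv, hxh⟩, hall⟩ := hX
    have hUc : ∀ (v : Fin D.nV) (a : Fin D.nH), C.enc (Uf (eqv (v, a))) = D.Uc C.mul v a :=
      fun v a => by
        simp only [Uf, Equiv.symm_apply_apply, C.enc_mul, hVf, hHf]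
        rfl
    refine ⟨eqv (⟨_, hxv⟩, ⟨_, hxh⟩), hUc _ _, fun i => ?_⟩
    have h := allN_iff hall i i.2
    simp only [Bool.and_eq_true, Nat.blt_eq] at h
    obtain ⟨⟨⟨h1, h2⟩, h3⟩, h4⟩ := h
    obtain ⟨ha, hu⟩ := K.act_sub_eq (g := Uf (eqv (⟨_, hxv⟩, ⟨_, hxh⟩))) (i := i)
      (j := ⟨_, h1⟩) (k := eqv (⟨_, h2⟩, ⟨_, h3⟩))
      (C.enc_inj (by
        show C.enc (Uf (eqv (⟨_, hxv⟩, ⟨_, hxh⟩)) * Tf i) =
          C.enc (Tf ⟨_, h1⟩ * Uf (eqv (⟨_, h2⟩, ⟨_, h3⟩)))
        refine (C.enc_mul _ _).trans ((?_ : _ = _).trans (C.enc_mul _ _).symm)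
        rw [hUc, hUc, hTf, hTf]
        exact Nat.eq_of_beq_eq_true h4))
    refine ⟨congrArg Fin.val ha, ?_, ?_⟩ <;> rw [hu, Equiv.symm_apply_apply]
  obtain ⟨X', hXe, hXt⟩ := hel X htx
  obtain ⟨Y', hYe, hYt⟩ := hel Y hty
  have hsum : ∀ (A B : STab) (a b : Fin (D.nV * D.nH)),
      (∀ i : Fin D.m, ((eqv.symm (K.sub (Uf a) i)).2 : ℕ) = getP 16 A.uh i) →
      (∀ i : Fin D.m, ((K.act (Uf b) i : Fin D.m) : ℕ) = getP 16 B.p i ∧
          ((eqv.symm (K.sub (Uf b) i)).1 : ℕ) = getP 8 B.uv i) →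
      F.c (Uf a) (Uf b) = (D.coresSum A B : ZMod D.n) := by
    intro A B a b ha hb
    rw [SCert.coresSum, sum_sumN, K.cores_c f hf hf0 hf0']
    refine Finset.sum_congr rfl fun i _ => ?_
    simp only [f, xi]
    rw [ha, (hb i).1, (hb i).2]
  simp only [SCert.valOK, Bool.and_eq_true] at hval
  obtain ⟨hcomm, hv'⟩ := hval
  have hXY : ⁅Uf X', Uf Y'⁆ = 1 := by
    rw [commutatorElement_eq_one_iff_mul_comm]
    apply C.enc_inj
    refine (C.enc_mul (Uf X') (Uf Y')).trans ((?_ : _ = _).trans (C.enc_mul (Uf Y') (Uf X')).symm)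
    rw [hXe, hYe]
    exact Nat.eq_of_beq_eq_true hcomm
  have hcv : commVal F [(Uf X', Uf Y')] = 1 := by
    simp only [commVal, hXY, F.one_left, List.map_nil, List.prod_nil, add_zero, sub_zero]
    rw [hsum X Y X' Y' (fun i => (hXt i).2.2) (fun i => ⟨(hYt i).1, (hYt i).2.1⟩),
      hsum Y X Y' X' (fun i => (hYt i).2.2) (fun i => ⟨(hXt i).1, (hXt i).2.1⟩),
      cast_of_beq_mod hv']
    push_cast
    ring
  exact exists_stem_of_cocycle hperf F [(Uf X', Uf Y')] (by simp [hXY]) hcv

end Cfsg.Agent.SchurBound
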