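import Cfsg.Agent.SchurBound.M22CoresThree

set_option autoImplicit false
set_option maxRecDepth 40000

/-!
The checks of the data for the extension with kernel of order 3.
-/

namespace Cfsg.Agent.SchurBound

open Cfsg.Agent.SchurCert

theorem m22CoresThree_reps : m22CoresThreeCert.repsOK permMulD permOne = true := by decide +kernel

theorem m22CoresThree_ranks : m22CoresThreeCert.rankOK = true := by decide +kernel

theorem m22CoresThree_keys : m22CoresThreeCert.keysOK (pairKey m22CoresThreePairs) = true := by decide +kernel

theorem m22CoresThree_sub : m22CoresThreeCert.subOK permMulD permOne = true := by decide +kernel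

theorem m22CoresThree_tbl : m22CoresThreeCert.tblOK = true := by decide +kernel

theorem m22CoresThree_coc : m22CoresThreeCert.cocOK = true := by decide +kernel

theorem m22CoresThree_tabx : m22CoresThreeCert.tabOK permMulD m22CoresThreeCert.x m22CoresThreeCert.px m22CoresThreeCert.ux = true := by decide +kernel

theorem m22CoresThree_taby : m22CoresThreeCert.tabOK permMulD m22CoresThreeCert.y m22CoresThreeCert.py m22CoresThreeCert.uy = true := by decide +kernel

theorem m22CoresThree_value : m22CoresThreeCert.valOK permMulD = true := by decide +kernel

theorem m22CoresThree_checked : m22CoresThreeCert.Checked permMulD permOne (pairKey m22CoresThreePairs) :=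
  ⟨m22CoresThree_reps, m22CoresThree_ranks, m22CoresThree_keys, m22CoresThree_sub, m22CoresThree_tbl, m22CoresThree_coc, m22CoresThree_tabx, m22CoresThree_taby, m22CoresThree_value⟩

end Cfsg.Agent.SchurBound
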