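import Cfsg.Agent.SchurBound.M22CoresTwo

set_option autoImplicit false
set_option maxRecDepth 40000

/-!
The checks of the data for the extension with kernel of order 4.
-/

namespace Cfsg.Agent.SchurBound

open Cfsg.Agent.SchurCert

theorem m22CoresTwo_reps : m22CoresTwoCert.repsOK permMulD permOne = true := by decide +kernel

theorem m22CoresTwo_ranks : m22CoresTwoCert.rankOK = true := by decide +kernel

theorem m22CoresTwo_keys : m22CoresTwoCert.keysOK (pairKey m22CoresTwoPairs) = true := by decide +kernel

theorem m22CoresTwo_sub : m22CoresTwoCert.subOK permMulD permOne = true := by decide +kernel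

theorem m22CoresTwo_tbl : m22CoresTwoCert.tblOK = true := by decide +kernel

theorem m22CoresTwo_coc : m22CoresTwoCert.cocOK = true := by decide +kernel

theorem m22CoresTwo_tabx : m22CoresTwoCert.tabOK permMulD m22CoresTwoCert.x m22CoresTwoCert.px m22CoresTwoCert.ux = true := by decide +kernel

theorem m22CoresTwo_taby : m22CoresTwoCert.tabOK permMulD m22CoresTwoCert.y m22CoresTwoCert.py m22CoresTwoCert.uy = true := by decide +kernel

theorem m22CoresTwo_value : m22CoresTwoCert.valOK permMulD = true := by decide +kernel

theorem m22CoresTwo_checked : m22CoresTwoCert.Checked permMulD permOne (pairKey m22CoresTwoPairs) :=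
  ⟨m22CoresTwo_reps, m22CoresTwo_ranks, m22CoresTwo_keys, m22CoresTwo_sub, m22CoresTwo_tbl, m22CoresTwo_coc, m22CoresTwo_tabx, m22CoresTwo_taby, m22CoresTwo_value⟩

end Cfsg.Agent.SchurBound
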