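import Cfsg.Agent.SchurBound.Main
import Cfsg.Agent.SchurBound.M22Bounds
import Cfsg.Agent.SchurBound.M22CoresTwoCheck
import Cfsg.Agent.SchurBound.M22CoresThreeCheck
import Cfsg.Agent.Golay.MathieuSimple

set_option autoImplicit false
set_option maxRecDepth 20000
set_option maxHeartbeats 800000

/-!
The Schur multiplier of M22 is cyclic of order twelve.
-/

namespace Cfsg.Agent.SchurBound

open Cfsg Cfsg.Agent.Golay Cfsg.Agent.SchurCert

theorem m22All_tested :
    (m22TwoRankGens ++ m22TwoRankFus ++ m22TwoExpGens ++ m22TwoExpFus ++ m22ThreeRankGens ++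
      m22ThreeRankFus ++ m22ThreeExpGens ++ m22ThreeExpFus ++ m22CoresTwoGens ++
      m22CoresThreeGens).all validPair = true ∧
    ∀ x ∈ m22TwoRankGens ++ m22TwoRankFus ++ m22TwoExpGens ++ m22TwoExpFus ++ m22ThreeRankGens ++
      m22ThreeRankFus ++ m22ThreeExpGens ++ m22ThreeExpFus ++ m22CoresTwoGens ++ m22CoresThreeGens,
    PreservesRows (codeFun x.1) ∧ codeFun x.1 none = none ∧ codeFun x.1 (some 0) = some 0 := by
  decide +kernel

theorem m22_enc (L : List (ℕ × ℕ))
    (hL : ∀ x ∈ L, x ∈ m22TwoRankGens ++ m22TwoRankFus ++ m22TwoExpGens ++ m22TwoExpFus ++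
      m22ThreeRankGens ++ m22ThreeRankFus ++ m22ThreeExpGens ++ m22ThreeExpFus ++ m22CoresTwoGens ++
      m22CoresThreeGens) (i : ℕ) :
    (permCode Spor.M22).enc (elemAt Spor.M22 L i) = (L.map Prod.fst).getD i permOne :=
  enc_elemAt (List.all_eq_true.2 fun x hx => List.all_eq_true.1 m22All_tested.1 x (hL x hx))
    (fun x hx => by
      have hv := List.all_eq_true.1 m22All_tested.1 x (hL x hx)
      have h := m22All_tested.2 x (hL x hx)
      exact ⟨⟨permOfPair_mem_M24 hv h.1, MulAction.mem_stabilizer_iff.2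
          ((permOfPair_apply hv _).trans h.2.1)⟩,
        MulAction.mem_stabilizer_iff.2 ((permOfPair_apply hv _).trans h.2.2)⟩) i

theorem applies_of (B : BCert) (p N m : ℕ) (gl fl : List (ℕ × ℕ)) (hg : B.D.gens = gl.map Prod.fst)
    (hf : B.D.gs = fl.map Prod.fst)
    (hgm : ∀ x ∈ gl, x ∈ m22TwoRankGens ++ m22TwoRankFus ++ m22TwoExpGens ++ m22TwoExpFus ++
      m22ThreeRankGens ++ m22ThreeRankFus ++ m22ThreeExpGens ++ m22ThreeExpFus ++ m22CoresTwoGens ++
      m22CoresThreeGens)
    (hfm : ∀ x ∈ fl, x ∈ m22TwoRankGens ++ m22TwoRankFus ++ m22TwoExpGens ++ m22TwoExpFus ++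
      m22ThreeRankGens ++ m22ThreeRankFus ++ m22ThreeExpGens ++ m22ThreeExpFus ++ m22CoresTwoGens ++
      m22CoresThreeGens)
    (hp : p.Prime) (hP : B.D.P.p = p) (hn : B.D.P.p ^ B.D.P.n = N) (hm : 443520 = N * m)
    (hpm : ¬ p ∣ m) (hchk : B.check permMul permOne = true) :
    Applies (permCode Spor.M22) B p (elemAt Spor.M22 gl) (elemAt Spor.M22 fl) := by
  have hgen : ∀ i < B.D.P.n, (permCode Spor.M22).enc (elemAt Spor.M22 gl i) =
      B.D.gens.getD i (permCode Spor.M22).one := fun i _ => hg ▸ m22_enc gl hgm i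
  have hc := hchk
  simp only [BCert.check, Bool.and_eq_true] at hc
  obtain ⟨-, hcard⟩ := card_initGroup_of_groupOK (permCode Spor.M22) B.D (hP.symm ▸ hp) _ hgen
    hc.1.1.1 hc.1.1.2
  refine ⟨hp, hP, hgen, fun i => hf ▸ m22_enc fl hfm i, ?_, hchk⟩
  rwa [index_initGroup card_M22 (hcard.trans hn) hm]

theorem m22_two_part : (Nat.card (CentralExt.schurMult Spor.M22)).factorization 2 ≤ 2 :=
  factorization_schurMult_le (permCode Spor.M22)
    (applies_of m22TwoRankCert 2 128 3465 m22TwoRankGens m22TwoRankFus rfl rfl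
      (fun x hx => by simp [hx]) (fun x hx => by simp [hx]) Nat.prime_two rfl rfl (by norm_num)
      (by norm_num) m22TwoRank_check)
    (applies_of m22TwoExpCert 2 128 3465 m22TwoExpGens m22TwoExpFus rfl rfl
      (fun x hx => by simp [hx]) (fun x hx => by simp [hx]) Nat.prime_two rfl rfl (by norm_num)
      (by norm_num) m22TwoExp_check)
    _ rfl rfl rfl rfl rfl rfl

theorem m22_three_part : (Nat.card (CentralExt.schurMult Spor.M22)).factorization 3 ≤ 1 :=
  factorization_schurMult_le (permCode Spor.M22)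
    (applies_of m22ThreeRankCert 3 9 49280 m22ThreeRankGens m22ThreeRankFus rfl rfl
      (fun x hx => by simp [hx]) (fun x hx => by simp [hx]) Nat.prime_three rfl rfl (by norm_num)
      (by norm_num) m22ThreeRank_check)
    (applies_of m22ThreeExpCert 3 9 49280 m22ThreeExpGens m22ThreeExpFus rfl rfl
      (fun x hx => by simp [hx]) (fun x hx => by simp [hx]) Nat.prime_three rfl rfl (by norm_num)
      (by norm_num) m22ThreeExp_check)
    _ rfl rfl rfl rfl rfl rfl

theorem m22CoresTwo_pairs : (∀ p ∈ m22CoresTwoPairs, p.1 < 24 ∧ p.2 < 24) ∧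
    ∀ k < 128, (m22CoresTwoPairs.map fun p =>
      (getC (m22CoresTwoCert.Uc k) p.1, getC (m22CoresTwoCert.Uc k) p.2)).Perm m22CoresTwoPairs := by
  decide +kernel

theorem m22CoresThree_pairs : (∀ p ∈ m22CoresThreePairs, p.1 < 24 ∧ p.2 < 24) ∧
    ∀ k < 36, (m22CoresThreePairs.map fun p =>
      (getC (m22CoresThreeCert.Uc k) p.1, getC (m22CoresThreeCert.Uc k) p.2)).Perm m22CoresThreePairs := by
  decide +kernel

theorem m22_perfect : commutator Spor.M22 = ⊤ := by
  haveI := isSimpleGroup_M22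
  refine (Subgroup.Normal.eq_bot_or_eq_top inferInstance).resolve_left fun hbot => ?_
  have hcomm : ∀ a b : Spor.M22, a * b = b * a := fun a b => by
    rw [← commutatorElement_eq_one_iff_mul_comm, ← Subgroup.mem_bot, ← hbot, _root_.commutator_def]
    exact Subgroup.commutator_mem_commutator (Subgroup.mem_top a) (Subgroup.mem_top b)
  have h := congrArg (permCode Spor.M22).enc
    (hcomm (elemAt Spor.M22 m22CoresTwoGens 0) (elemAt Spor.M22 m22CoresTwoGens 1))
  rw [(permCode Spor.M22).enc_mul, (permCode Spor.M22).enc_mul, m22_enc _ (fun x hx => by simp [hx]),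
    m22_enc _ (fun x hx => by simp [hx])] at h
  have hne : permMul ((m22CoresTwoGens.map Prod.fst).getD 0 permOne)
      ((m22CoresTwoGens.map Prod.fst).getD 1 permOne) ≠
    permMul ((m22CoresTwoGens.map Prod.fst).getD 1 permOne)
      ((m22CoresTwoGens.map Prod.fst).getD 0 permOne) := by decide +kernel
  exact hne h

theorem permCodeD_enc (H : Subgroup (Equiv.Perm Cfsg.GolayPt)) (g : H) :
    (permCodeD H).enc g = (permCode H).enc g := rfl

theorem permCodeD_one (H : Subgroup (Equiv.Perm Cfsg.GolayPt)) : (permCodeD H).one = permOne := rfl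

theorem m22CoresTwo_gens : m22CoresTwoCert.gens = m22CoresTwoGens.map Prod.fst := rfl

theorem m22CoresThree_gens : m22CoresThreeCert.gens = m22CoresThreeGens.map Prod.fst := rfl

theorem m22CoresTwo_stem : ∃ (W : Type) (_ : Group W) (_ : Finite W) (σ : W →* Spor.M22),
    Cfsg.IsStemExtension σ ∧ Nonempty (σ.ker ≃* Multiplicative (ZMod m22CoresTwoCert.n)) := by
  haveI : NeZero m22CoresTwoCert.n := ⟨Nat.succ_ne_zero 3⟩
  refine exists_stem_of_lcert (permCodeD Spor.M22) m22_perfect m22CoresTwoCert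
    (pairKey m22CoresTwoPairs) (fun g k hk => ?_)
    (fun i _ => ⟨elemAt Spor.M22 m22CoresTwoGens i, ?_⟩)
    (card_M22.trans (show (443520 : ℕ) = 3465 * 128 by norm_num)) m22CoresTwo_checked
  · show pairKey m22CoresTwoPairs (permMulD _ _) = _
    rw [permMulD_eq]
    exact pairKey_mul _ _ _ m22CoresTwo_pairs.1 (m22CoresTwo_pairs.2 k hk)
  · rw [permCodeD_enc, permCodeD_one, m22CoresTwo_gens]
    exact m22_enc m22CoresTwoGens (fun x hx => List.mem_append.2 (Or.inl (List.mem_append.2 (Or.inr hx)))) i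

theorem m22CoresThree_stem : ∃ (W : Type) (_ : Group W) (_ : Finite W) (σ : W →* Spor.M22),
    Cfsg.IsStemExtension σ ∧ Nonempty (σ.ker ≃* Multiplicative (ZMod m22CoresThreeCert.n)) := by
  haveI : NeZero m22CoresThreeCert.n := ⟨Nat.succ_ne_zero 2⟩
  refine exists_stem_of_lcert (permCodeD Spor.M22) m22_perfect m22CoresThreeCert
    (pairKey m22CoresThreePairs) (fun g k hk => ?_)
    (fun i _ => ⟨elemAt Spor.M22 m22CoresThreeGens i, ?_⟩)
    (card_M22.trans (show (443520 : ℕ) = 12320 * 36 by norm_num)) m22CoresThree_checked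
  · show pairKey m22CoresThreePairs (permMulD _ _) = _
    rw [permMulD_eq]
    exact pairKey_mul _ _ _ m22CoresThree_pairs.1 (m22CoresThree_pairs.2 k hk)
  · rw [permCodeD_enc, permCodeD_one, m22CoresThree_gens]
    exact m22_enc m22CoresThreeGens (fun x hx => List.mem_append.2 (Or.inr hx)) i

theorem four_dvd_m22_multiplier : 4 ∣ Nat.card (CentralExt.schurMult Spor.M22) := by
  obtain ⟨W, _, _, σ, hσ, ⟨e⟩⟩ := m22CoresTwo_stem
  have h := CentralExt.card_ker_dvd_schurMult hσ
  rwa [Nat.card_congr e.toEquiv, Nat.card_congr Multiplicative.toAdd, Nat.card_zmod] at h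

theorem three_dvd_m22_multiplier : 3 ∣ Nat.card (CentralExt.schurMult Spor.M22) := by
  obtain ⟨W, _, _, σ, hσ, ⟨e⟩⟩ := m22CoresThree_stem
  have h := CentralExt.card_ker_dvd_schurMult hσ
  rwa [Nat.card_congr e.toEquiv, Nat.card_congr Multiplicative.toAdd, Nat.card_zmod] at h

end Cfsg.Agent.SchurBound
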